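import Cfsg.Agent.Lib.H51.SylowAmb

/-! The averaging (transfer) argument on an abelian subgroup: product of the conjugates of `v ∈ C_V(T)` over `R / T`. -/

set_option autoImplicit false

namespace H51.Averaging

open Cfsg Subgroup

variable {G : Type*} [Group G]

open scoped IsMulCommutative in
/-- Averaging: if `V` is abelian, normalized by `R ≥ T`, and `v ∈ C_V(T)`, there is `w ∈ C_V(R)` congruent to
`v ^ |R : T|` modulo `[V, R]`. -/
theorem exists_norm {V R T : Subgroup G} (hV : IsMulCommutative V) (hRV : R ≤ normalizer (V : Set G))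
    [Finite (R ⧸ T.subgroupOf R)] {v : G} (hv : v ∈ V) (hvT : v ∈ centralizer (T : Set G)) :
    ∃ w ∈ V, w ∈ centralizer (R : Set G) ∧ w * (v ^ (T.relIndex R))⁻¹ ∈ ⁅V, R⁆ := by
  classical
  have : Fintype (R ⧸ T.subgroupOf R) := Fintype.ofFinite _
  have hconj : ∀ r ∈ R, ∀ x ∈ V, r * x * r⁻¹ ∈ V := fun r hr x hx =>
    (mem_normalizer_iff.1 (hRV hr) x).1 hx
  -- the function on cosets
  let f : (R ⧸ T.subgroupOf R) → V := fun q => Quotient.liftOn' q
    (fun r : R => (⟨(r : G) * v * (r : G)⁻¹, hconj r r.2 v hv⟩ : V)) (by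
      intro a b hab
      rw [QuotientGroup.leftRel_apply, Subgroup.mem_subgroupOf] at hab
      apply Subtype.ext
      show (a : G) * v * (a : G)⁻¹ = (b : G) * v * (b : G)⁻¹
      have h1 := mem_centralizer_iff.1 hvT _ hab
      -- h1 : a⁻¹ b v = v a⁻¹ b
      have h2 : (a : G)⁻¹ * (b : G) * v = v * ((a : G)⁻¹ * (b : G)) := by
        simpa using h1
      have h3 : (b : G) * v = (a : G) * v * (a : G)⁻¹ * (b : G) := by
        calc (b : G) * v = (a : G) * ((a : G)⁻¹ * (b : G) * v) := by group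
          _ = (a : G) * (v * ((a : G)⁻¹ * (b : G))) := by rw [h2]
          _ = (a : G) * v * (a : G)⁻¹ * (b : G) := by group
      rw [h3]; group)
  have hf : ∀ r : R, f (QuotientGroup.mk r) = ⟨(r : G) * v * (r : G)⁻¹, hconj r r.2 v hv⟩ := fun r => rfl
  let w : V := ∏ q, f q
  -- conjugation by an element of R as a hom V → V
  let c : R → (V →* V) := fun r =>
    { toFun := fun x => ⟨(r : G) * x * (r : G)⁻¹, hconj r r.2 x x.2⟩
      map_one' := by apply Subtype.ext; simp
      map_mul' := by intro x y; apply Subtype.ext; simp [mul_assoc] }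
  have hcf : ∀ (r : R) (q : R ⧸ T.subgroupOf R), c r (f q) = f (r • q) := by
    intro r q
    obtain ⟨s, rfl⟩ := QuotientGroup.mk_surjective q
    rw [MulAction.Quotient.smul_mk, hf, hf]
    apply Subtype.ext
    show (r : G) * ((s : G) * v * (s : G)⁻¹) * (r : G)⁻¹ = ((r • s : R) : G) * v * ((r • s : R) : G)⁻¹
    rw [smul_eq_mul, Subgroup.coe_mul]; group
  have hcw : ∀ r : R, c r w = w := by
    intro r
    show c r (∏ q, f q) = ∏ q, f q
    rw [map_prod]
    simp_rw [hcf]
    exact Fintype.prod_equiv (MulAction.toPerm r) _ _ (fun q => rfl)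
  refine ⟨w, w.2, ?_, ?_⟩
  · rw [mem_centralizer_iff]
    intro r hr
    have h1 := congrArg Subtype.val (hcw ⟨r, hr⟩)
    have h2 : r * (w : G) * r⁻¹ = w := h1
    calc r * (w : G) = (r * (w : G) * r⁻¹) * r := by group
      _ = w * r := by rw [h2]
  · have h1 : w * (((⟨v, hv⟩ : V) ^ (Fintype.card (R ⧸ T.subgroupOf R)))⁻¹) = ∏ q, (f q * (⟨v, hv⟩ : V)⁻¹) := by
      rw [Finset.prod_mul_distrib, Finset.prod_const, Finset.card_univ, inv_pow]
    have h2 : (∏ q, (f q * (⟨v, hv⟩ : V)⁻¹)) ∈ (⁅V, R⁆).subgroupOf V := by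
      apply Subgroup.prod_mem
      intro q _
      obtain ⟨s, rfl⟩ := QuotientGroup.mk_surjective q
      rw [Subgroup.mem_subgroupOf]
      show (s : G) * v * (s : G)⁻¹ * v⁻¹ ∈ ⁅V, R⁆
      rw [commutator_comm]
      exact commutator_mem_commutator s.2 hv
    rw [← h1, Subgroup.mem_subgroupOf] at h2
    have h3 : T.relIndex R = Fintype.card (R ⧸ T.subgroupOf R) := by
      rw [Subgroup.relIndex, Subgroup.index_eq_card, Nat.card_eq_fintype_card]
    rw [h3]
    simpa using h2

end H51.Averaging
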