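import Cfsg.Agent.Lib.H37.BLayer2
import Cfsg.Agent.Lib.H37.Pump6
import Cfsg.Prelude.Def_Balance
import Cfsg.Agent.Lib.H37.LocBal

/-!
2-components of intersections `L(C(x)) ∩ C(y)` for commuting involutions `x`, `y` (S1775).
-/

set_option autoImplicit false
set_option maxHeartbeats 1000000
set_option linter.unusedSectionVars false

open Subgroup Cfsg H26.Basic H26.Components H26.PxQ H26.GenFitting H26.LocalFitting H26.CompNorm H26.PComponents
open H26.OPPrime H37.PCOf H37.Pump6 H37.BLayer2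
open scoped Pointwise commutatorElement

namespace H51.BComp

universe u

variable {G : Type u} [Group G] [Finite G]

/-- In a group `Q` with `O(Q) = 1` and the `B`-property, a 2-component of the centralizer of an involution is a component. -/
theorem comp_of_B {Q : Type u} [Group Q] [Finite Q] (hB : HasBProperty Q) (hO : pPrimeCore 2 Q = ⊥) {t : Q}
    (ht : orderOf t = 2) {J : Subgroup Q} (hJ : IsPComponentOf 2 J (centralizer ({t} : Set Q))) :
    IsComponent (J.subgroupOf (centralizer ({t} : Set Q))) := by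
  haveI : Fact (Nat.Prime 2) := ⟨Nat.prime_two⟩
  have h1 := hB t ht
  have h2 : (⁅pLayer 2 ↥(centralizer ({t} : Set Q)), pPrimeCore 2 ↥(centralizer ({t} : Set Q))⁆) = ⊥ := by
    have h3 : (⁅pLayer 2 ↥(centralizer ({t} : Set Q)), pPrimeCore 2 ↥(centralizer ({t} : Set Q))⁆).map
        (centralizer ({t} : Set Q)).subtype ≤ pPrimeCore 2 Q := h1
    rw [hO, le_bot_iff, Subgroup.map_eq_bot_iff_of_injective _ (Subgroup.subtype_injective _)] at h3
    exact h3
  refine isComponent_of hJ.2 ((isQuasisimple_iff hJ.2).mpr ?_)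
  refine commutator_eq_bot_mono h2 (le_pLayer hJ.2) ?_
  rw [map_pPrimeCore_eq hJ.2.1]
  exact inf_le_right

theorem central_lemma (hF : IsSimpleGroup ↥(generalizedFittingSubgroup G))
    (hF' : ¬ IsMulCommutative ↥(generalizedFittingSubgroup G)) {y : G} (hy : y ≠ 1) :
    centralizer ({y} : Set G) ≠ ⊤ := by
  intro h
  have hyc : ∀ g : G, g * y = y * g := by
    intro g
    have : g ∈ centralizer ({y} : Set G) := by rw [h]; trivial
    exact (mem_centralizer_singleton_iff.mp this)
  have hyZ : y ∈ center G := mem_center_iff.mpr (fun g => hyc g)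
  have h1 : (center G) ≤ fittingSubgroup G := by
    refine le_sSup ⟨inferInstance, ?_⟩
    letI : CommGroup (center G) := { (inferInstance : Group (center G)) with
      mul_comm := fun a b => Subtype.ext ((mem_center_iff.mp b.2) a) }
    exact CommGroup.isNilpotent
  have h2 : y ∈ generalizedFittingSubgroup G := fitting_le_gFitting (h1 hyZ)
  let y' : generalizedFittingSubgroup G := ⟨y, h2⟩
  have h3 : y' ∈ center (generalizedFittingSubgroup G) := mem_center_iff.mpr (fun g => Subtype.ext (hyc g))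
  have hn : (center (generalizedFittingSubgroup G)).Normal := inferInstance
  rcases hF.eq_bot_or_eq_top_of_normal _ hn with h4 | h4
  · rw [h4, mem_bot] at h3
    exact hy (congrArg Subtype.val h3)
  · apply hF'
    refine ⟨⟨fun a b => ?_⟩⟩
    have ha : a ∈ center (generalizedFittingSubgroup G) := by rw [h4]; trivial
    exact ((mem_center_iff.mp ha) b).symm

theorem qs_sn_of {D : Subgroup G} {J : Subgroup D} (hJ : IsPComponent 2 J) :
    QS 2 (J.map D.subtype) ∧ SN (J.map D.subtype) D := by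
  haveI : Fact (Nat.Prime 2) := ⟨Nat.prime_two⟩
  obtain ⟨h1, h2⟩ := H37.PCOf.isPComponent_iff.mp hJ
  refine ⟨h2.map_of_injective _ (Subgroup.subtype_injective _), Subgroup.map_subtype_le J, ?_⟩
  have : (J.map D.subtype).subgroupOf D = J := Subgroup.comap_map_eq_self_of_injective (Subgroup.subtype_injective _) J
  rw [this]; exact h1

theorem main (hF : IsSimpleGroup ↥(generalizedFittingSubgroup G))
    (hF' : ¬ IsMulCommutative ↥(generalizedFittingSubgroup G))
    (hsec : ∀ (H : Subgroup G) (N : Subgroup ↥H) [N.Normal], (H ≠ ⊤ ∨ N ≠ ⊥) → HasBProperty (↥H ⧸ N))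
    (x y : G) (hx : orderOf x = 2) (hy : orderOf y = 2) (Cx Cy : Subgroup G)
    (hCx : Cx = centralizer ({x} : Set G)) (hCy : Cy = centralizer ({y} : Set G)) (x' : Cy) (hxx : (x' : G) = x)
    (J : Subgroup G) (hQ : QS 2 J) (hS : SN J (((pLayer 2 ↥Cx).map Cx.subtype) ⊓ Cy))
    (O : Subgroup Cy) (hOd : O = pPrimeCore 2 ↥Cy) [O.Normal] (xb : Cy ⧸ O)
    (hxb : xb = QuotientGroup.mk' O x') :
    IsComponent
        ((((J).subgroupOf Cy).map (QuotientGroup.mk' O)).subgroupOf (centralizer ({xb} : Set _))) ∧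
      ∀ E : Subgroup G, E ≤ Cx ⊓ Cy → Odd (Nat.card ↥E) →
        (∀ j ∈ J, ∀ e ∈ E, j * e * j⁻¹ ∈ E) →
          ⁅J, E⁆ ≤ O.map Cy.subtype := by
  haveI : Fact (Nat.Prime 2) := ⟨Nat.prime_two⟩
  have hcopO : (Nat.card O).Coprime 2 := by rw [hOd]; exact H1.Cores.coprime_card_pPrimeCore 2
  -- `D` is normal in `C(x) ∩ C(y)`
  have hSN : SN J (Cx ⊓ Cy) := by
    refine hS.trans (SN.of_normal (inf_le_inf_right _ (map_subtype_le _)) ?_)
    have h1 : Cx ≤ normalizer (((pLayer 2 ↥Cx).map Cx.subtype : Subgroup G) : Set G) := by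
      have h2 : (pLayer 2 ↥Cx).Normal := H26.PComponents.pLayer_normal 2
      intro g hg
      rw [mem_normalizer_iff]
      intro h
      constructor
      · rintro ⟨a, ha, rfl⟩
        exact ⟨⟨g, hg⟩ * a * ⟨g, hg⟩⁻¹, h2.conj_mem a ha ⟨g, hg⟩, rfl⟩
      · rintro ⟨a, ha, hae⟩
        refine ⟨⟨g, hg⟩⁻¹ * a * ⟨g, hg⟩, ?_, ?_⟩
        · have := h2.conj_mem a ha ⟨g, hg⟩⁻¹
          simpa using this
        · have e1 : ((⟨g, hg⟩⁻¹ * a * ⟨g, hg⟩ : Cx) : G) = g⁻¹ * (a : G) * g := rfl
          change ((⟨g, hg⟩⁻¹ * a * ⟨g, hg⟩ : Cx) : G) = h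
          rw [e1]
          have e2 : (a : G) = g * h * g⁻¹ := hae
          rw [e2]; group
    intro g hg
    obtain ⟨hg1, hg2⟩ := mem_inf.mp hg
    have h3 := mem_normalizer_iff.mp (h1 hg1)
    rw [mem_normalizer_iff]
    intro h
    rw [mem_inf, mem_inf, h3 h]
    refine and_congr_right fun _ => ?_
    constructor
    · intro h4; exact Cy.mul_mem (Cy.mul_mem hg2 h4) (Cy.inv_mem hg2)
    · intro h4
      have := Cy.mul_mem (Cy.mul_mem (Cy.inv_mem hg2) h4) hg2
      have e : g⁻¹ * (g * h * g⁻¹) * g = h := by group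
      rwa [e] at this
  have hJCy : J ≤ Cy := hSN.1.trans inf_le_right
  set π := QuotientGroup.mk' O with hπ
  have hQy : QS 2 (J.subgroupOf Cy) := (qs_subgroupOf hJCy).mpr hQ
  have hne : (J.subgroupOf Cy).map π ≠ ⊥ := by
    intro h
    rw [Subgroup.map_eq_bot_iff, QuotientGroup.ker_mk'] at h
    exact hQy.not_le hcopO h
  have hQb : QS 2 ((J.subgroupOf Cy).map π) := qs_of_surj π hQy hne
  -- the centralizer of `x̄`
  have hx' : orderOf x' = 2 := by
    rw [← hx, ← hxx]; exact (Subgroup.orderOf_coe x').symm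
  have hcent : centralizer ({xb} : Set (Cy ⧸ O)) = (centralizer ({x'} : Set Cy)).map π := by
    have h5 := map_centralizer_eq (A := zpowers x') (N := O) (p := 2) (by
      rw [IsPGroup.iff_card]
      exact ⟨1, by rw [Nat.card_zpowers, hx', pow_one]⟩)
      (fun h => (Nat.Prime.coprime_iff_not_dvd Nat.prime_two).mp hcopO.symm h)
    rw [MonoidHom.map_zpowers] at h5
    rw [H37.LocBal.centralizer_singleton_eq xb, H37.LocBal.centralizer_singleton_eq x', ← h5, hxb]
  have hSNy : SN (J.subgroupOf Cy) (centralizer ({x'} : Set Cy)) := by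
    have h1 : SN (J.comap Cy.subtype) ((Cx ⊓ Cy).comap Cy.subtype) := sn_comap hSN Cy.subtype
    have h2 : (Cx ⊓ Cy).comap Cy.subtype = centralizer ({x'} : Set Cy) := by
      ext g
      rw [mem_comap, mem_inf, mem_centralizer_singleton_iff, hCx, mem_centralizer_singleton_iff, ← hxx]
      constructor
      · rintro ⟨h, -⟩; exact Subtype.ext h
      · intro h; exact ⟨congrArg Subtype.val h, g.2⟩
    rw [h2] at h1
    exact h1
  have hSNb : SN ((J.subgroupOf Cy).map π) (centralizer ({xb} : Set (Cy ⧸ O))) := by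
    rw [hcent]; exact hSNy.map π
  have hpc : IsPComponentOf 2 ((J.subgroupOf Cy).map π) (centralizer ({xb} : Set (Cy ⧸ O))) :=
    pcOf_iff.mpr ⟨hSNb, hQb⟩
  have hxb2 : orderOf xb = 2 := by
    have h1 : xb ^ 2 = 1 := by
      rw [hxb, ← map_pow]
      have : x' ^ 2 = 1 := by rw [← hx']; exact pow_orderOf_eq_one x'
      change π (x' ^ 2) = 1
      rw [this, map_one]
    refine orderOf_eq_prime h1 ?_
    intro h2
    have h3 : x' ∈ O := by
      rw [← QuotientGroup.ker_mk' O, MonoidHom.mem_ker]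
      rw [← h2, hxb]
    have h4 : orderOf x' ∣ Nat.card O := Subgroup.orderOf_dvd_natCard _ h3
    rw [hx'] at h4
    exact (Nat.Prime.coprime_iff_not_dvd Nat.prime_two).mp hcopO.symm h4
  have hy1 : y ≠ 1 := by
    rintro rfl
    rw [orderOf_one] at hy; omega
  have hB : HasBProperty (Cy ⧸ O) := hsec Cy O (Or.inl (by rw [hCy]; exact central_lemma hF hF' hy1))
  have hOb : pPrimeCore 2 (Cy ⧸ O) = ⊥ := by
    subst hOd
    exact H1.Cores.pPrimeCore_quotient_pPrimeCore 2
  have hcomp := comp_of_B hB hOb hxb2 hpc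
  refine ⟨hcomp, ?_⟩
  intro E hE hodd hEJ
  have hECy : E ≤ Cy := hE.trans inf_le_right
  set Jb := (J.subgroupOf Cy).map π with hJb
  set Eb := (E.subgroupOf Cy).map π with hEb
  have hEbc : Eb ≤ centralizer ({xb} : Set (Cy ⧸ O)) := by
    rw [hcent]
    refine map_mono ?_
    intro g hg
    rw [mem_centralizer_singleton_iff]
    have h3 : (g : G) ∈ Cx := (mem_inf.mp (hE hg)).1
    rw [hCx, mem_centralizer_singleton_iff, ← hxx] at h3
    exact Subtype.ext h3
  have hcardE : (Nat.card Eb).Coprime 2 := by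
    have h1 : Nat.card Eb ∣ Nat.card (E.subgroupOf Cy) := Subgroup.card_map_dvd _ _
    have h2 : Nat.card (E.subgroupOf Cy) = Nat.card E := Nat.card_congr (subgroupOfEquivOfLe hECy).toEquiv
    rw [h2] at h1
    exact Nat.Coprime.coprime_dvd_left h1 (Nat.coprime_two_right.mpr hodd)
  have hnorm : Jb.subgroupOf (centralizer ({xb} : Set (Cy ⧸ O))) ≤
      normalizer ((Eb.subgroupOf (centralizer ({xb} : Set (Cy ⧸ O))) : Subgroup _) : Set _) := by
    have key : ∀ j ∈ Jb, ∀ e ∈ Eb, j * e * j⁻¹ ∈ Eb := by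
      rintro _ ⟨j, hj, rfl⟩ _ ⟨e, he, rfl⟩
      refine ⟨j * e * j⁻¹, ?_, by simp⟩
      exact hEJ j hj e he
    intro j hj
    rw [mem_normalizer_iff]
    intro e
    constructor
    · intro he; exact key _ hj _ he
    · intro he
      have h1 := key _ (Jb.inv_mem hj) _ he
      have h2 : (((j : centralizer ({xb} : Set (Cy ⧸ O))) : Cy ⧸ O))⁻¹ * ((j * e * j⁻¹ : centralizer ({xb} : Set (Cy ⧸ O))) : Cy ⧸ O) * ((j : Cy ⧸ O)⁻¹)⁻¹ = (e : Cy ⧸ O) := by
        simp [mul_assoc]
      change (e : Cy ⧸ O) ∈ Eb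
      rw [← h2]; exact h1
  rcases le_or_commutator_eq_bot_of_le_normalizer hcomp hnorm with h | h
  · exfalso
    refine hQb.not_le hcardE ?_
    intro j hj
    exact h (show (⟨j, hSNb.1 hj⟩ : centralizer ({xb} : Set (Cy ⧸ O))) ∈ Jb.subgroupOf _ from hj)
  · have h1 : ⁅Jb, Eb⁆ = ⊥ := (subgroupOf_commutator_eq_bot_iff hSNb.1 hEbc).mp h
    rw [hJb, hEb, ← Subgroup.map_commutator, Subgroup.map_eq_bot_iff, QuotientGroup.ker_mk'] at h1
    have h2 := Subgroup.map_mono (f := Cy.subtype) h1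
    rw [Subgroup.map_commutator, map_subgroupOf_eq_of_le hJCy, map_subgroupOf_eq_of_le hECy] at h2
    exact h2

end H51.BComp
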