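import Cfsg.Agent.Lib.H51.PuB2f
import Cfsg.Agent.Lib.H51.ThompsonA

/-!
Pushing up for `p = 2`, `|G : O₂(G)| = 2q`, `q` an odd prime.
-/

set_option autoImplicit false
set_option linter.unusedSectionVars false

open Cfsg Subgroup H28.Cj H28.RelSyl H52.PU
open scoped commutatorElement

namespace H51.PuDih

open H51.PuElem H51.PuB2

variable {X : Type*} [Group X] [Finite X]

/-- hypotheses -/
structure Dih (G S : Subgroup X) (q : ℕ) : Prop where
  syl : IsSyl 2 S G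
  self : G ⊓ centralizer (Qf 2 G : Set X) ≤ Qf 2 G
  hq : q.Prime
  hq2 : q ≠ 2
  card : (Qf 2 G).relIndex G = 2 * q
  push : ∀ T : Subgroup X, T ≤ S → G ≤ normalizer (T : Set X) →
    normalizer (S : Set X) ≤ normalizer (T : Set X) → T = ⊥

namespace Dih

variable {G S : Subgroup X} {q : ℕ} (h : Dih G S q)

include h

theorem QS : Qf 2 G ≤ S := H51.PuElem.Qf_le h.syl

theorem index_aux : (Qf 2 G).relIndex S = 2 ∧ S.relIndex G = q := by
  have h1 := relIndex_mul_relIndex (Qf 2 G) S G h.QS h.syl.le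
  rw [h.card] at h1
  obtain ⟨n, hn⟩ := IsPGroup.iff_card.mp h.syl.isPGroup
  have h2 : (Qf 2 G).relIndex S ∣ 2 ^ n := hn ▸ Subgroup.relIndex_dvd_card _ S
  obtain ⟨k, -, hk⟩ := (Nat.dvd_prime_pow Nat.prime_two).mp h2
  have h3 := h.syl.not_dvd
  rw [hk] at h1
  have hq := h.hq
  have hqodd : ¬ 2 ∣ q := fun hd => h.hq2 (((Nat.prime_dvd_prime_iff_eq Nat.prime_two hq).1 hd).symm)
  have hk1 : k = 1 := by
    rcases Nat.lt_trichotomy k 1 with hk0 | hk1 | hk2
    · have : k = 0 := by omega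
      rw [this, pow_zero, one_mul] at h1
      exact absurd ⟨q, h1⟩ h3
    · exact hk1
    · obtain ⟨j, rfl⟩ : ∃ j, k = j + 2 := ⟨k - 2, by omega⟩
      exfalso
      apply hqodd
      refine ⟨2 ^ j * S.relIndex G, ?_⟩
      have : 2 * (2 * (2 ^ j * S.relIndex G)) = 2 * q := by rw [← h1]; ring
      exact (Nat.eq_of_mul_eq_mul_left (by norm_num) this).symm
  rw [hk1, pow_one] at h1 hk
  exact ⟨hk, Nat.eq_of_mul_eq_mul_left (by norm_num) h1⟩

theorem ne_bot : S ≠ ⊥ := by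
  rintro rfl
  have := h.index_aux.1
  rw [relIndex_bot_right] at this
  omega

theorem exists_z : ∃ z ∈ Zf S, z ≠ 1 ∧ z ^ 2 = 1 := exists_Zf h.syl.isPGroup h.ne_bot

theorem Z_ne : Zf S ≠ ⊥ := by
  intro h0
  obtain ⟨z, hz, hz1, -⟩ := h.exists_z
  rw [h0, mem_bot] at hz
  exact hz1 hz

theorem Z_not_norm : ¬ G ≤ normalizer (Zf S : Set X) := fun h0 =>
  h.Z_ne (h.push _ (Zf_le S) h0 (normalizer_le_Zf S))

theorem Z_le_Q {δ : Subgroup X} (hδ : IsSyl 2 δ G) : Zf δ ≤ Qf 2 G := by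
  intro z hz
  apply h.self
  refine Subgroup.mem_inf.2 ⟨hδ.le (mem_Zf.1 hz).1, mem_centralizer_iff.2 fun y hy => ?_⟩
  exact (mem_Zf.1 hz).2 y (H51.PuElem.Qf_le hδ hy)

theorem V_le : Vf 2 G ≤ Qf 2 G := H51.PuElem.Vf_le_iff.2 fun _ hδ => h.Z_le_Q hδ

theorem Q_cent : Qf 2 G ≤ centralizer (Vf 2 G : Set X) := by
  have : Vf 2 G ≤ centralizer (Qf 2 G : Set X) := by
    rw [H51.PuElem.Vf_le_iff]
    intro δ hδ z hz
    rw [mem_centralizer_iff]
    intro y hy
    exact (mem_Zf.1 hz).2 y (H51.PuElem.Qf_le hδ hy)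
  exact le_centralizer_symm this

theorem V_comm {v w : X} (hv : v ∈ Vf 2 G) (hw : w ∈ Qf 2 G) : Commute v w :=
  commute_of_le_centralizer h.Q_cent hw hv

theorem Z_le_V : Zf S ≤ Vf 2 G := H51.PuElem.Zf_le_Vf h.syl

theorem V_not_le : ¬ Vf 2 G ≤ Zf S := by
  intro h0
  apply h.Z_not_norm
  rw [← le_antisymm h0 h.Z_le_V]
  exact le_normalizer_Vf G

/-- a subgroup of `S` containing `Q` is `Q` or `S` -/
theorem sup_Q {A : Subgroup X} (hA : A ≤ S) (hAQ : ¬ A ≤ Qf 2 G) : A ⊔ Qf 2 G = S := by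
  have h1 := relIndex_mul_relIndex (Qf 2 G) (A ⊔ Qf 2 G) S le_sup_right (sup_le hA h.QS)
  rw [h.index_aux.1] at h1
  have h2 : (Qf 2 G).relIndex (A ⊔ Qf 2 G) ≠ 1 := by
    rw [Ne, relIndex_eq_one]
    exact fun h3 => hAQ (le_sup_left.trans h3)
  have h3 : (A ⊔ Qf 2 G).relIndex S = 1 := by
    rcases (Nat.dvd_prime Nat.prime_two).1 (Dvd.intro _ h1) with h4 | h4
    · exact absurd h4 h2
    · rw [h4] at h1; omega
  exact le_antisymm (sup_le hA h.QS) (relIndex_eq_one.1 h3)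

theorem exists_A : ∃ A, H51.ThompsonA.MaxAb A S ∧ ¬ A ≤ Qf 2 G := by
  by_contra hcon
  push Not at hcon
  have hJ : H51.ThompsonA.J S ≤ Qf 2 G := sSup_le fun A hA => hcon A hA
  have h1 := H51.ThompsonA.J_eq_of_le hJ h.QS
  have h2 : H51.ThompsonA.J S = ⊥ := by
    apply h.push _ (H51.ThompsonA.J_le S)
    · rw [← h1]
      exact (le_normalizer_Qf G).trans (H51.ThompsonA.normalizer_le_normalizer_J _)
    · exact H51.ThompsonA.normalizer_le_normalizer_J S
  obtain ⟨z, hz, hz1, -⟩ := h.exists_z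
  have h3 := H51.ThompsonA.mem_J_of_center (P := S) (mem_Zf.1 hz).1 (mem_Zf.1 hz).2
  rw [h2, mem_bot] at h3
  exact hz1 h3

theorem idx : (Zf S).relIndex (Vf 2 G) = 2 := by
  obtain ⟨A, hA, hAQ⟩ := h.exists_A
  have hVS : Vf 2 G ≤ S := h.V_le.trans h.QS
  have h1 := (hA.card_ineq (A₀ := A ⊓ Qf 2 G) (U := Vf 2 G) inf_le_left hVS
    (fun a ha b hb => (h.V_comm ha (h.V_le hb)).eq)
    (fun a ha u hu => (h.V_comm hu (Subgroup.mem_inf.1 ha).2).eq.symm)).1
  have hSA := h.sup_Q hA.1 hAQ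
  have h2 : (A ⊓ Qf 2 G) ⊓ Vf 2 G ≤ Zf S := by
    intro x hx
    rw [Subgroup.mem_inf, Subgroup.mem_inf] at hx
    have h3 : S ≤ centralizer ({x} : Set X) := by
      rw [← hSA]
      apply sup_le
      · intro a ha
        rw [mem_centralizer_singleton_iff]
        exact hA.2.1 a ha x hx.1.1
      · intro a ha
        rw [mem_centralizer_singleton_iff]
        exact (h.V_comm hx.2 ha).eq.symm
    refine mem_Zf.2 ⟨hA.1 hx.1.1, fun y hy => ?_⟩
    have := h3 hy
    rwa [mem_centralizer_singleton_iff] at this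
  have h3 : Nat.card ((A ⊓ Qf 2 G) ⊓ Vf 2 G : Subgroup X) ≤ Nat.card (Zf S) :=
    Nat.le_of_dvd Nat.card_pos (Subgroup.card_dvd_of_le h2)
  have h4 : Nat.card A ≤ 2 * Nat.card (A ⊓ Qf 2 G : Subgroup X) := by
    have h5 := relIndex_mul_card (inf_le_left : A ⊓ Qf 2 G ≤ A)
    rw [inf_relIndex_left] at h5
    rw [← h5]
    apply Nat.mul_le_mul_right
    have h6 : (Qf 2 G).relIndex A ≤ (Qf 2 G).relIndex S :=
      relIndex_le_of_le_right hA.1 (by rw [h.index_aux.1]; norm_num)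
    rwa [h.index_aux.1] at h6
  have h5 : Nat.card (Vf 2 G) ≤ 2 * Nat.card (Zf S) := by
    have hpos : 0 < Nat.card (A ⊓ Qf 2 G : Subgroup X) := Nat.card_pos
    have h6 : Nat.card (A ⊓ Qf 2 G : Subgroup X) * Nat.card (Vf 2 G) ≤
        Nat.card (A ⊓ Qf 2 G : Subgroup X) * (2 * Nat.card (Zf S)) := by
      refine h1.trans ?_
      calc Nat.card A * Nat.card ((A ⊓ Qf 2 G) ⊓ Vf 2 G : Subgroup X)
          ≤ (2 * Nat.card (A ⊓ Qf 2 G : Subgroup X)) * Nat.card (Zf S) := Nat.mul_le_mul h4 h3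
        _ = _ := by ring
    exact Nat.le_of_mul_le_mul_left h6 hpos
  have h6 := relIndex_mul_card h.Z_le_V
  have h7 : (Zf S).relIndex (Vf 2 G) ≤ 2 := by
    have hpos : 0 < Nat.card (Zf S) := Nat.card_pos
    rw [← h6] at h5
    exact Nat.le_of_mul_le_mul_right h5 hpos
  have h8 : (Zf S).relIndex (Vf 2 G) ≠ 1 := by
    rw [Ne, relIndex_eq_one]; exact h.V_not_le
  have h9 : (Zf S).relIndex (Vf 2 G) ≠ 0 := by
    have : Finite (↥(Vf 2 G) ⧸ (Zf S).subgroupOf (Vf 2 G)) := inferInstance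
    exact index_ne_zero_of_finite
  omega

/-- `S` is maximal in `G` -/
theorem S_max {K : Subgroup X} (h1 : S ≤ K) (h2 : K ≤ G) : K = S ∨ K = G := by
  have h3 := relIndex_mul_relIndex S K G h1 h2
  rw [h.index_aux.2] at h3
  rcases (Nat.dvd_prime h.hq).1 (Dvd.intro _ h3) with h4 | h4
  · left
    exact le_antisymm (relIndex_eq_one.1 h4) h1
  · right
    rw [h4] at h3
    have h5 : K.relIndex G = 1 :=
      Nat.eq_of_mul_eq_mul_left h.hq.pos (by rw [h3, mul_one])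
    exact le_antisymm h2 (relIndex_eq_one.1 h5)

theorem gen {K : Subgroup X} (h1 : S ≤ K) {y : X} (hy : y ∈ G) (hyK : y ∈ K) (hyS : y ∉ S) :
    G ≤ K := by
  have h2 := h.S_max (K := K ⊓ G) (le_inf h1 h.syl.le) inf_le_right
  rcases h2 with h2 | h2
  · exfalso
    apply hyS
    rw [← h2]
    exact Subgroup.mem_inf.2 ⟨hyK, hy⟩
  · rw [← h2]; exact inf_le_left

theorem opp : ∃ x ∈ G, S ⊔ cj x S = G := by
  have h1 : ¬ G ≤ normalizer (S : Set X) := by
    intro h0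
    have h1 : S ≤ Qf 2 G := le_Qf h.syl.le h0 h.syl.isPGroup
    have := h.index_aux.1
    rw [relIndex_eq_one.2 h1] at this
    omega
  obtain ⟨x, hx, hx2⟩ := Set.not_subset.mp h1
  have hx2 : x ∉ normalizer (S : Set X) := hx2
  refine ⟨x, hx, ?_⟩
  have hle : cj x S ≤ G := by
    have := cj_le_cj (g := x).2 h.syl.le
    rwa [cj_eq_self_of_mem hx] at this
  rcases h.S_max (K := S ⊔ cj x S) le_sup_left (sup_le h.syl.le hle) with h2 | h2
  · exfalso
    apply hx2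
    apply mem_normalizer_of_cj_le
    have h3 : cj x S ≤ S := le_sup_right.trans h2.le
    exact h3
  · exact h2

theorem exists_y : ∃ y ∈ G, orderOf y = q := by
  have := Fact.mk h.hq
  have h1 : q ∣ Nat.card G := by
    rw [← relIndex_mul_card h.syl.le, h.index_aux.2]
    exact Dvd.intro _ rfl
  obtain ⟨y, hy⟩ := exists_prime_orderOf_dvd_card' q h1
  exact ⟨y, y.2, by rw [orderOf_coe, hy]⟩

theorem q_odd : Odd q := h.hq.odd_of_ne_two h.hq2

/-- elements of odd order of `S` are trivial -/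
theorem S_odd {s : X} (hs : s ∈ S) {n : ℕ} (hn : Odd n) (h1 : s ^ n = 1) : s = 1 := by
  obtain ⟨k, hk⟩ := h.syl.isPGroup ⟨s, hs⟩
  have hk2 : s ^ 2 ^ k = 1 := by simpa using congrArg Subtype.val hk
  have h2 : orderOf s ∣ Nat.gcd n (2 ^ k) := Nat.dvd_gcd (orderOf_dvd_of_pow_eq_one h1)
    (orderOf_dvd_of_pow_eq_one hk2)
  have h3 : Nat.gcd n (2 ^ k) = 1 := Nat.Coprime.pow_right k (Nat.coprime_two_right.2 hn)
  rw [h3, Nat.dvd_one] at h2
  exact orderOf_eq_one_iff.1 h2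

/-- if an element `y` of odd order of `G` centralises `v ∈ V` modulo `C(G)` then it centralises
`v` -/
theorem comm_of_odd {v y : X} {n : ℕ} (hn : Odd n) (hy : y ∈ G) (hyn : y ^ n = 1)
    (hv : v ∈ Vf 2 G) (hc : ⁅v, y⁆ ∈ centralizer (G : Set X)) : Commute v y := by
  have h1 : Commute ⁅v, y⁆ y := (cent_comm hc hy).symm
  have h2 := comm_pow_right h1 n
  rw [hyn] at h2
  have h3 : ⁅v, y⁆ ^ n = 1 := by
    have h4 : v * 1 * v⁻¹ * 1⁻¹ = ⁅v, y⁆ ^ n := h2
    rw [← h4]; group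
  have h4 : ⁅v, y⁆ ∈ Vf 2 G := by
    have h5 := conj_mem_of_le_normalizer (le_normalizer_Vf (p := 2) G) hy (inv_mem hv)
    have e : ⁅v, y⁆ = v * (y * v⁻¹ * y⁻¹) := by rw [commutatorElement_def]; group
    rw [e]
    exact mul_mem hv h5
  exact commutatorElement_eq_one_iff_commute.1 (h.S_odd (h.QS (h.V_le h4)) hn h3)

/-- `S` contains no element of odd order `≠ 1` -/
theorem not_mem_S {y : X} {n : ℕ} (hn : Odd n) (hyn : y ^ n = 1) (hy1 : y ≠ 1) : y ∉ S :=
  fun hs => hy1 (h.S_odd hs hn hyn)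

/-- a fixed point in `Z(S)` of an element of odd order is central -/
theorem central_of_odd {v y : X} {n : ℕ} (hn : Odd n) (hy : y ∈ G) (hyn : y ^ n = 1)
    (hy1 : y ≠ 1) (hv : v ∈ Zf S) (hc : Commute v y) : v ∈ centralizer (G : Set X) := by
  have h1 : G ≤ centralizer ({v} : Set X) := by
    refine h.gen (K := centralizer ({v} : Set X)) ?_ hy ?_ (h.not_mem_S hn hyn hy1)
    · intro s hs
      rw [mem_centralizer_singleton_iff]
      exact Zf_comm hv hs
    · rw [mem_centralizer_singleton_iff]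
      exact hc.eq.symm
  rw [mem_centralizer_iff]
  intro g hg
  have := h1 hg
  rwa [mem_centralizer_singleton_iff] at this

theorem Z_not_cent : ¬ Zf S ≤ centralizer (G : Set X) := by
  intro h0
  apply h.Z_not_norm
  apply le_normalizer_of_conj_mem
  intro g hg z hz
  rw [conj_of_comm (cent_comm (h0 hz) hg)]
  exact hz

theorem norm_cent : G ≤ normalizer (centralizer (G : Set X) : Set X) := by
  apply le_normalizer_of_conj_mem
  intro g hg z hz
  rw [conj_of_comm (cent_comm hz hg)]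
  exact hz

theorem key : ∀ s ∈ S, s ∉ Qf 2 G → ∀ v ∈ Vf 2 G, v * s * v⁻¹ * s⁻¹ ∈ centralizer (G : Set X) →
    v ∈ Zf S := by
  intro s hs hsQ v hv hc
  by_contra hvZ
  rw [← commutatorElement_def] at hc
  -- every element of `V` is `z` or `z v`
  have hV : ∀ w ∈ Vf 2 G, w ∈ Zf S ∨ w * v⁻¹ ∈ Zf S := by
    intro w hw
    by_contra hcon
    push Not at hcon
    have h1 : ((Zf S).subgroupOf (Vf 2 G)).index = 2 := h.idx
    have h2 := (Subgroup.mul_mem_iff_of_index_two h1 (a := ⟨w, hw⟩) (b := ⟨v⁻¹, inv_mem hv⟩))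
    simp only [mem_subgroupOf] at h2
    have h3 : w * v⁻¹ ∈ Zf S := h2.2 ⟨fun h4 => absurd h4 hcon.1,
      fun h4 => absurd (by simpa using h4) hvZ⟩
    exact hcon.2 h3
  have hSS : ∀ t ∈ S, t ∈ Qf 2 G ∨ t * s⁻¹ ∈ Qf 2 G := by
    intro w hw
    by_contra hcon
    push Not at hcon
    have h1 : ((Qf 2 G).subgroupOf S).index = 2 := h.index_aux.1
    have h2 := (Subgroup.mul_mem_iff_of_index_two h1 (a := ⟨w, hw⟩) (b := ⟨s⁻¹, inv_mem hs⟩))
    simp only [mem_subgroupOf] at h2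
    have h3 : w * s⁻¹ ∈ Qf 2 G := h2.2 ⟨fun h4 => absurd h4 hcon.1,
      fun h4 => absurd (by simpa using h4) hsQ⟩
    exact hcon.2 h3
  have h1 : ∀ w ∈ Vf 2 G, ∀ t ∈ S, ⁅w, t⁆ ∈ centralizer (G : Set X) := by
    intro w hw t ht
    rcases hV w hw with hw1 | hw1
    · rw [commutatorElement_eq_one_iff_commute.2 (show Commute w t from (Zf_comm hw1 ht).symm)]
      exact one_mem _
    rcases hSS t ht with ht1 | ht1
    · rw [commutatorElement_eq_one_iff_commute.2 (h.V_comm hw ht1)]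
      exact one_mem _
    set z := w * v⁻¹ with hz
    set u := t * s⁻¹ with hu
    have e1 : w = z * v := by rw [hz]; group
    have e2 : t = u * s := by rw [hu]; group
    have huG : u ∈ G := Qf_le' ht1
    rw [e1, cml, e2, cmr, commutatorElement_eq_one_iff_commute.2 (h.V_comm hv ht1), one_mul,
      conj_of_comm (cent_comm hc huG), conj_of_comm (cent_comm hc (h.syl.le (mem_Zf.1 hw1).1)),
      commutatorElement_eq_one_iff_commute.2 (show Commute z (u * s) from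
        (Zf_comm hw1 (mul_mem (h.QS ht1) hs)).symm), mul_one]
    exact hc
  obtain ⟨x, hx, hxG⟩ := h.opp
  have h2 : ∀ w ∈ Vf 2 G, ∀ a ∈ G, ⁅w, a⁆ ∈ centralizer (G : Set X) := by
    intro w hw a ha
    refine comm_mem_of_sup (V := centralizer (G : Set X)) hxG (h.syl.le.trans h.norm_cent) ?_
      (h1 w hw) ?_ ha
    · refine le_trans ?_ h.norm_cent
      rw [← hxG]; exact le_sup_right
    · intro t ht
      rw [mem_cj] at ht
      have h3 := h1 (x⁻¹ * w * x) (by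
        have := conj_mem_of_le_normalizer (le_normalizer_Vf (p := 2) G) (inv_mem hx) hw
        simpa using this) _ ht
      have e : ⁅w, t⁆ = x * ⁅x⁻¹ * w * x, x⁻¹ * t * x⁆ * x⁻¹ := by
        simp only [commutatorElement_def]; group
      rw [e, conj_of_comm (cent_comm h3 hx)]
      exact h3
  obtain ⟨y, hy, hyq⟩ := h.exists_y
  have hyn : y ^ q = 1 := by rw [← hyq]; exact pow_orderOf_eq_one y
  have hy1 : y ≠ 1 := by
    rintro rfl
    rw [orderOf_one] at hyq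
    exact h.hq.one_lt.ne hyq
  apply h.Z_not_cent
  intro z hz
  exact h.central_of_odd h.q_odd hy hyn hy1 hz
    (h.comm_of_odd h.q_odd hy hyn (h.Z_le_V hz) (h2 z (h.Z_le_V hz) y hy))
where
  Qf_le' {u : X} (hu : u ∈ Qf 2 G) : u ∈ G := H52.PU.Qf_le G hu

theorem setup : Setup 2 G S where
  syl := h.syl
  ne_bot := h.ne_bot
  self := h.self
  V_le := h.V_le
  Q_cent := h.Q_cent
  idx := by rw [h.idx, h.index_aux.1]
  key := h.key
  opp := h.opp
  push := h.push

/-- the case `b = 1` -/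
theorem exists_n : ∃ n ∈ normalizer (S : Set X), ¬ Vf 2 G ≤ cj n (Qf 2 G) := by
  rcases alt h.setup with h1 | ⟨h1, h2⟩
  · exact h1
  · exact absurd (H51.PuB2.main h.setup h1 h2 (by omega)).1 (by norm_num)

end Dih

end H51.PuDih
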