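import Cfsg.Agent.Lib.H51.PuDih

/-!
Pushing up for `p = 2`, `|G : O₂(G)| = 2q`, in a simple group with `G` maximal: structure of `G`.
-/

set_option autoImplicit false
set_option linter.unusedSectionVars false

open Cfsg Subgroup H28.Cj H28.RelSyl H52.PU
open scoped commutatorElement

namespace H51.PuDih

open H51.PuElem H51.PuB2

variable {X : Type*} [Group X] [Finite X]

theorem cj_pw (x : X) (m : ℕ) (K : Subgroup X) : cj x (pw m K) ≤ pw m (cj x K) := by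
  rw [Subgroup.map_le_iff_le_comap]
  unfold pw
  rw [closure_le]
  rintro y ⟨s, hs, rfl⟩
  show MulAut.conj x (s ^ m) ∈ Subgroup.closure _
  apply Subgroup.subset_closure
  refine ⟨x * s * x⁻¹, conj_mem_cj.2 hs, ?_⟩
  rw [MulAut.conj_apply]; exact conj_pow.symm

/-- the situation of Sims' theorem -/
structure Sims (G S : Subgroup X) (q : ℕ) (n : X) : Prop where
  dih : Dih G S q
  coatom : IsCoatom G
  simple : ∀ N : Subgroup X, N.Normal → N = ⊥ ∨ N = ⊤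
  center : Subgroup.center X = ⊥
  n_mem : n ∈ normalizer (S : Set X)
  nle : ¬ Vf 2 G ≤ cj n (Qf 2 G)

namespace Sims

variable {G S : Subgroup X} {q : ℕ} {n : X} (h : Sims G S q n)

include h

theorem cr : Cr 2 G S (cj n G) S := cr_of_one h.dih.setup h.n_mem h.nle

theorem n_not : n ∉ G := by
  intro hn
  apply h.nle
  rw [mem_normalizer_iff_cj.1 (le_normalizer_Qf G hn)]
  exact h.dih.V_le

theorem top_of {K : Subgroup X} (h1 : G ≤ K) (h2 : ¬ K ≤ G) : K = ⊤ :=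
  h.coatom.2 K (lt_of_le_not_ge h1 h2)

theorem V_pow {v : X} (hv : v ∈ Vf 2 G) : v ^ 2 = 1 := by
  refine H51.PuElem.V_pow h.dih.setup (fun v hv s hs => ?_) v hv
  have h1 : ⁅v, s⁆ ∈ ⁅Vf 2 G, S⁆ := commutator_mem_commutator hv hs
  rw [h.cr.comm_eq] at h1
  exact h.cr.comm_le_Z h1

theorem V_pow' {v : X} (hv : v ∈ Vf 2 (cj n G)) : v ^ 2 = 1 := by
  refine H51.PuElem.V_pow h.cr.sβ (fun v hv s hs => ?_) v hv
  have h1 : ⁅v, s⁆ ∈ ⁅Vf 2 (cj n G), S⁆ := commutator_mem_commutator hv hs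
  rw [h.cr.comm_eq'] at h1
  exact h.cr.comm_le_Z h1

theorem sq_Q {a : X} (ha : a ∈ Qf 2 G) : ∃ w ∈ Qf 2 G ⊓ Qf 2 (cj n G), a ^ 2 = w ^ 2 := by
  have h1 := h.dih.QS ha
  rw [← h.cr.sup_eq] at h1
  obtain ⟨v, hv, w, hw, rfl⟩ :=
    (mem_sup_iff_of_le_normalizer (h.cr.hα.trans h.cr.sβ.S_norm_Q)).mp h1
  have hwQ : w ∈ Qf 2 G := by
    have := mul_mem (inv_mem (h.dih.V_le hv)) ha
    simpa using this
  refine ⟨w, Subgroup.mem_inf.2 ⟨hwQ, hw⟩, ?_⟩
  rw [(h.dih.V_comm hv hwQ).mul_pow, h.V_pow hv, one_mul]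

theorem sq_Q' {a : X} (ha : a ∈ Qf 2 (cj n G)) :
    ∃ w ∈ Qf 2 G ⊓ Qf 2 (cj n G), a ^ 2 = w ^ 2 := by
  have h1 := h.cr.sβ.Q_le ha
  rw [← h.cr.sup_eq'] at h1
  obtain ⟨v, hv, w, hw, rfl⟩ :=
    (mem_sup_iff_of_le_normalizer (h.cr.hβ.trans h.cr.sα.S_norm_Q)).mp h1
  have hwQ : w ∈ Qf 2 (cj n G) := by
    have := mul_mem (inv_mem (h.cr.sβ.V_le hv)) ha
    simpa using this
  refine ⟨w, Subgroup.mem_inf.2 ⟨hw, hwQ⟩, ?_⟩
  rw [(commute_of_le_centralizer h.cr.sβ.Q_cent hwQ hv).mul_pow, h.V_pow' hv, one_mul]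

theorem pw_Q : pw 2 (Qf 2 G) = pw 2 (Qf 2 G ⊓ Qf 2 (cj n G)) := by
  apply le_antisymm
  · unfold pw
    apply Subgroup.closure_mono
    rintro x ⟨s, hs, rfl⟩
    obtain ⟨w, hw, e⟩ := h.sq_Q hs
    exact ⟨w, hw, e⟩
  · exact pw_mono inf_le_left

theorem pw_Q' : pw 2 (Qf 2 (cj n G)) = pw 2 (Qf 2 G ⊓ Qf 2 (cj n G)) := by
  apply le_antisymm
  · unfold pw
    apply Subgroup.closure_mono
    rintro x ⟨s, hs, rfl⟩
    obtain ⟨w, hw, e⟩ := h.sq_Q' hs
    exact ⟨w, hw, e⟩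
  · exact pw_mono inf_le_right

theorem pw_bot : pw 2 (Qf 2 G) = ⊥ := by
  have h1 : G ≤ normalizer (pw 2 (Qf 2 G) : Set X) := fun g hg =>
    norm_pw (le_normalizer_Qf G hg)
  have h2 : n ∈ normalizer (pw 2 (Qf 2 G) : Set X) := by
    apply mem_normalizer_of_cj_le
    refine (cj_pw n 2 (Qf 2 G)).trans ?_
    rw [cj_Qf, h.pw_Q', ← h.pw_Q]
  have h3 := h.top_of h1 (fun h4 => h.n_not (h4 h2))
  have h4 : (pw 2 (Qf 2 G)).Normal := normalizer_eq_top_iff.1 h3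
  rcases h.simple _ h4 with h5 | h5
  · exact h5
  · exfalso
    apply h.coatom.1
    rw [← top_le_iff, ← h5]
    exact pw_le.trans (H52.PU.Qf_le G)

theorem Q_pow {a : X} (ha : a ∈ Qf 2 G) : a ^ 2 = 1 := by
  have h1 : a ^ 2 ∈ pw 2 (Qf 2 G) := Subgroup.subset_closure ⟨a, ha, rfl⟩
  rwa [h.pw_bot, mem_bot] at h1

theorem Q_comm {a b : X} (ha : a ∈ Qf 2 G) (hb : b ∈ Qf 2 G) : Commute a b := by
  have h1 := h.Q_pow ha
  have h2 := h.Q_pow hb
  have h3 := h.Q_pow (mul_mem ha hb)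
  rw [pow_two] at h1 h2 h3
  have ha' : a⁻¹ = a := inv_eq_of_mul_eq_one_right h1
  have hb' : b⁻¹ = b := inv_eq_of_mul_eq_one_right h2
  have h4 : (a * b)⁻¹ = a * b := inv_eq_of_mul_eq_one_right h3
  rw [mul_inv_rev, ha', hb'] at h4
  exact h4.symm

theorem Q'_comm {a b : X} (ha : a ∈ Qf 2 (cj n G)) (hb : b ∈ Qf 2 (cj n G)) : Commute a b := by
  rw [← cj_Qf, mem_cj] at ha hb
  have h1 := h.Q_comm ha hb
  have e1 : a * b = n * (n⁻¹ * a * n * (n⁻¹ * b * n)) * n⁻¹ := by group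
  have e2 : b * a = n * (n⁻¹ * b * n * (n⁻¹ * a * n)) * n⁻¹ := by group
  show a * b = b * a
  rw [e1, e2, h1.eq]

theorem Q'_pow {a : X} (ha : a ∈ Qf 2 (cj n G)) : a ^ 2 = 1 := by
  rw [← cj_Qf, mem_cj] at ha
  have h1 := h.Q_pow ha
  have e1 : a = n * (n⁻¹ * a * n) * n⁻¹ := by group
  rw [e1, conj_pow, h1]; simp

theorem Z_eq : Zf S = Qf 2 G ⊓ Qf 2 (cj n G) := by
  apply le_antisymm
  · exact le_inf (h.dih.Z_le_Q h.dih.syl) (h.cr.sβ.Z_le_Q)
  · intro x hx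
    rw [Subgroup.mem_inf] at hx
    have h3 : S ≤ centralizer ({x} : Set X) := by
      rw [← h.cr.sup_eq]
      apply sup_le
      · intro a ha
        rw [mem_centralizer_singleton_iff]
        exact (h.Q_comm (h.dih.V_le ha) hx.1).eq
      · intro a ha
        rw [mem_centralizer_singleton_iff]
        exact (h.Q'_comm ha hx.2).eq
    refine mem_Zf.2 ⟨h.dih.QS hx.1, fun y hy => ?_⟩
    have := h3 hy
    rwa [mem_centralizer_singleton_iff] at this

theorem V_eq : Vf 2 G = Qf 2 G := by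
  apply le_antisymm h.dih.V_le
  have h1 := relIndex_mul_relIndex (Zf S) (Vf 2 G) (Qf 2 G) h.dih.Z_le_V h.dih.V_le
  rw [h.dih.idx] at h1
  have h2 : (Zf S).relIndex (Qf 2 G) ≤ 2 := by
    rw [h.Z_eq, inf_relIndex_left]
    have h3 : (Qf 2 (cj n G)).relIndex S = 2 := by rw [← h.cr.q]; exact h.dih.index_aux.1
    have h4 : (Qf 2 (cj n G)).relIndex (Qf 2 G) ≤ (Qf 2 (cj n G)).relIndex S :=
      relIndex_le_of_le_right h.dih.QS (by rw [h3]; norm_num)
    rwa [h3] at h4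
  have h5 : (Vf 2 G).relIndex (Qf 2 G) ≠ 0 := by
    have : Finite (↥(Qf 2 G) ⧸ (Vf 2 G).subgroupOf (Qf 2 G)) := inferInstance
    exact index_ne_zero_of_finite
  have h6 : (Vf 2 G).relIndex (Qf 2 G) = 1 := by
    rw [← h1] at h2; omega
  exact relIndex_eq_one.1 h6

/-- `C = Z(G)` as a subgroup of `Q` -/
theorem card_Z : Nat.card (Zf S) = 2 * Nat.card (Qf 2 G ⊓ centralizer (G : Set X) : Subgroup X) := by
  obtain ⟨x, hx, hxG⟩ := h.dih.opp
  have hV := cj_eq_self_of_mem (H := G) hx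
  have hVx : cj x (Vf 2 G) = Vf 2 G := mem_normalizer_iff_cj.1 (le_normalizer_Vf G hx)
  have hQx : cj x (Qf 2 G) = Qf 2 G := mem_normalizer_iff_cj.1 (le_normalizer_Qf G hx)
  have hC : Zf S ⊓ cj x (Zf S) = Qf 2 G ⊓ centralizer (G : Set X) := by
    apply le_antisymm
    · intro z hz
      rw [Subgroup.mem_inf] at hz
      refine Subgroup.mem_inf.2 ⟨h.dih.Z_le_Q h.dih.syl hz.1, ?_⟩
      have h3 : G ≤ centralizer ({z} : Set X) := by
        rw [← hxG]
        apply sup_le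
        · intro a ha
          rw [mem_centralizer_singleton_iff]
          exact Zf_comm hz.1 ha
        · intro a ha
          rw [mem_centralizer_singleton_iff]
          have := hz.2
          rw [H51.PuElem.cj_Zf] at this
          exact Zf_comm this ha
      rw [mem_centralizer_iff]
      intro y hy
      have := h3 hy
      rwa [mem_centralizer_singleton_iff] at this
    · intro z hz
      rw [Subgroup.mem_inf] at hz
      rw [Subgroup.mem_inf, H51.PuElem.cj_Zf]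
      refine ⟨mem_Zf.2 ⟨h.dih.QS hz.1, fun y hy => mem_centralizer_iff.1 hz.2 y (h.dih.syl.le hy)⟩,
        mem_Zf.2 ⟨?_, fun y hy => mem_centralizer_iff.1 hz.2 y ?_⟩⟩
      · have : cj x (Qf 2 G) ≤ cj x S := cj_le_cj.2 h.dih.QS
        rw [hQx] at this
        exact this hz.1
      · rw [← hxG]; exact mem_sup_right hy
  have hcV : ∀ a ∈ Vf 2 G, ∀ b ∈ Vf 2 G, Commute a b := fun a ha b hb =>
    h.dih.V_comm ha (h.dih.V_le hb)
  have hZx : cj x (Zf S) ≤ Vf 2 G := by rw [← hVx, cj_le_cj]; exact h.dih.Z_le_V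
  have hnorm : Zf S ≤ normalizer (cj x (Zf S) : Set X) := by
    apply le_normalizer_of_conj_mem
    intro g hg z hz
    rw [conj_of_comm (hcV g (h.dih.Z_le_V hg) z (hZx hz))]
    exact hz
  have h1 := H51.ThompsonA.card_sup_mul_card_inf' hnorm
  have hsup : Zf S ⊔ cj x (Zf S) = Vf 2 G := by
    apply le_antisymm (sup_le h.dih.Z_le_V hZx)
    have h2 := relIndex_mul_relIndex (Zf S) (Zf S ⊔ cj x (Zf S)) (Vf 2 G) le_sup_left
      (sup_le h.dih.Z_le_V hZx)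
    rw [h.dih.idx] at h2
    have h3 : (Zf S).relIndex (Zf S ⊔ cj x (Zf S)) ≠ 1 := by
      rw [Ne, relIndex_eq_one]
      intro h4
      have h5 : cj x (Zf S) ≤ Zf S := le_sup_right.trans h4
      have h6 := mem_normalizer_iff_cj.1 (mem_normalizer_of_cj_le h5)
      apply h.dih.Z_not_norm
      rw [← hxG]
      apply sup_le (le_normalizer.trans (normalizer_le_Zf S))
      have h7 : cj x S ≤ normalizer (cj x (Zf S) : Set X) := by
        rw [H51.PuElem.cj_Zf]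
        exact le_normalizer.trans (normalizer_le_Zf _)
      rwa [h6] at h7
    rcases (Nat.dvd_prime Nat.prime_two).1 (Dvd.intro _ h2) with h4 | h4
    · exact absurd h4 h3
    · rw [h4] at h2
      have h5 : (Zf S ⊔ cj x (Zf S)).relIndex (Vf 2 G) = 1 := by omega
      exact relIndex_eq_one.1 h5
  rw [hsup, hC, card_cj] at h1
  have h2 := relIndex_mul_card h.dih.Z_le_V
  rw [h.dih.idx] at h2
  rw [← h2] at h1
  have hpos : 0 < Nat.card (Zf S) := Nat.card_pos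
  have h3 : Nat.card (Zf S) * (2 * Nat.card (Qf 2 G ⊓ centralizer (G : Set X) : Subgroup X)) =
      Nat.card (Zf S) * Nat.card (Zf S) := by rw [← h1]; ring
  exact (Nat.eq_of_mul_eq_mul_left hpos h3).symm

theorem card_Q : Nat.card (Qf 2 G) =
    4 * Nat.card (Qf 2 G ⊓ centralizer (G : Set X) : Subgroup X) := by
  have h2 := relIndex_mul_card h.dih.Z_le_V
  rw [h.dih.idx, h.card_Z, h.V_eq] at h2
  rw [← h2]; ring

theorem card_C_le : Nat.card (Qf 2 G ⊓ centralizer (G : Set X) : Subgroup X) ≤ 2 := by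
  set C := Qf 2 G ⊓ centralizer (G : Set X) with hC
  have hCZ : C ≤ Zf S := by
    intro z hz
    have hz := Subgroup.mem_inf.1 hz
    exact mem_Zf.2 ⟨h.dih.QS hz.1, fun y hy => mem_centralizer_iff.1 hz.2 y (h.dih.syl.le hy)⟩
  have hZn : cj n (Zf S) = Zf S := mem_normalizer_iff_cj.1 (normalizer_le_Zf S h.n_mem)
  have hCZ' : cj n C ≤ Zf S := by rw [← hZn, cj_le_cj]; exact hCZ
  have hD : C ⊓ cj n C = ⊥ := by
    have h1 : centralizer ((C ⊓ cj n C : Subgroup X) : Set X) = ⊤ := by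
      apply h.top_of
      · intro g hg
        rw [mem_centralizer_iff]
        intro z hz
        have hz := Subgroup.mem_inf.1 hz
        have hz1 := Subgroup.mem_inf.1 hz.1
        exact (mem_centralizer_iff.1 hz1.2 g hg).symm
      · intro h2
        have h3 : cj n G ≤ G := by
          refine le_trans ?_ h2
          intro g hg
          rw [mem_centralizer_iff]
          intro z hz
          have hz := (Subgroup.mem_inf.1 hz).2
          rw [mem_cj] at hz hg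
          have hz1 := (Subgroup.mem_inf.1 hz).2
          have h4 := mem_centralizer_iff.1 hz1 _ hg
          have e1 : z * g = n * (n⁻¹ * z * n * (n⁻¹ * g * n)) * n⁻¹ := by group
          have e2 : g * z = n * (n⁻¹ * g * n * (n⁻¹ * z * n)) * n⁻¹ := by group
          rw [e1, e2, h4]
        have h4 : cj n G = G := Subgroup.eq_of_le_of_card_ge h3 (card_cj n G).ge
        apply h.nle
        rw [cj_Qf, h4]
        exact h.dih.V_le
    rw [eq_bot_iff]
    intro z hz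
    rw [← h.center, mem_center_iff]
    intro g
    have : g ∈ centralizer ((C ⊓ cj n C : Subgroup X) : Set X) := by rw [h1]; exact mem_top g
    exact (mem_centralizer_iff.1 this z hz).symm
  have hnorm : C ≤ normalizer (cj n C : Set X) := by
    apply le_normalizer_of_conj_mem
    intro g hg z hz
    rw [conj_of_comm (h.Q_comm (Subgroup.mem_inf.1 hg).1
      (h.dih.Z_le_Q h.dih.syl (hCZ' hz)))]
    exact hz
  have h1 := H51.ThompsonA.card_sup_mul_card_inf' hnorm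
  rw [hD, Subgroup.card_bot, mul_one, card_cj] at h1
  have h2 : Nat.card (C ⊔ cj n C : Subgroup X) ≤ Nat.card (Zf S) :=
    Nat.le_of_dvd Nat.card_pos (Subgroup.card_dvd_of_le (sup_le hCZ hCZ'))
  rw [h1, h.card_Z] at h2
  exact Nat.le_of_mul_le_mul_right h2 Nat.card_pos

theorem quot_normal : ((Qf 2 G ⊓ centralizer (G : Set X)).subgroupOf (Qf 2 G)).Normal := by
  apply normal_subgroupOf_of_le_normalizer
  apply le_normalizer_of_conj_mem
  intro g hg z hz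
  rw [conj_of_comm (h.Q_comm hg (Subgroup.mem_inf.1 hz).1)]
  exact hz

theorem quot_card :
    Nat.card (Qf 2 G ⧸ (Qf 2 G ⊓ centralizer (G : Set X)).subgroupOf (Qf 2 G)) = 4 := by
  have h1 := relIndex_mul_card (inf_le_left : Qf 2 G ⊓ centralizer (G : Set X) ≤ Qf 2 G)
  rw [h.card_Q] at h1
  exact Nat.eq_of_mul_eq_mul_right Nat.card_pos h1

theorem conj_Q {y v : X} (hy : y ∈ G) (hvQ : v ∈ Qf 2 G) (i : ℕ) :
    y ^ i * v * (y ^ i)⁻¹ ∈ Qf 2 G :=
  conj_mem_of_le_normalizer (le_normalizer_Qf G) (pow_mem hy i) hvQ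

theorem cong_aux {y v : X} (hy : y ∈ G) {m : ℕ} (hm : Odd m) (hym : y ^ m = 1) (hv : v ∈ Zf S)
    (hvC : v ∉ centralizer (G : Set X)) {i k : ℕ}
    (hc : (y ^ i * v * (y ^ i)⁻¹)⁻¹ * (y ^ (i + k) * v * (y ^ (i + k))⁻¹) ∈
      Qf 2 G ⊓ centralizer (G : Set X)) : y ^ k = 1 := by
  have h1 := (Subgroup.mem_inf.1 hc).2
  have h2 : v⁻¹ * (y ^ k * v * (y ^ k)⁻¹) ∈ centralizer (G : Set X) := by
    have h3 := conj_of_comm (cent_comm h1 (inv_mem (pow_mem hy i) : (y ^ i)⁻¹ ∈ G))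
    have e : (y ^ i)⁻¹ * ((y ^ i * v * (y ^ i)⁻¹)⁻¹ * (y ^ (i + k) * v * (y ^ (i + k))⁻¹)) *
        ((y ^ i)⁻¹)⁻¹ = v⁻¹ * (y ^ k * v * (y ^ k)⁻¹) := by
      rw [pow_add]; group
    rw [← e, h3]; exact h1
  have h4 : ⁅v⁻¹, y ^ k⁆ ∈ centralizer (G : Set X) := by
    have e : ⁅v⁻¹, y ^ k⁆ = v⁻¹ * (y ^ k * v * (y ^ k)⁻¹) := by
      rw [commutatorElement_def]; group
    rw [e]; exact h2
  have hyk : (y ^ k) ^ m = 1 := by rw [← pow_mul, mul_comm, pow_mul, hym, one_pow]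
  have h5 := h.dih.comm_of_odd hm (pow_mem hy k) hyk (inv_mem (h.dih.Z_le_V hv)) h4
  have h6 : Commute v (y ^ k) := by simpa using h5.inv_left
  by_contra hne
  exact hvC (h.dih.central_of_odd hm (pow_mem hy k) hyk hne hv h6)

theorem one_aux {y v : X} (hy : y ∈ G) (hvQ : v ∈ Qf 2 G) (hvC : v ∉ centralizer (G : Set X))
    (i : ℕ) : ((⟨y ^ i * v * (y ^ i)⁻¹, h.conj_Q hy hvQ i⟩ : Qf 2 G) :
      Qf 2 G ⧸ (Qf 2 G ⊓ centralizer (G : Set X)).subgroupOf (Qf 2 G)) ≠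
      ((1 : Qf 2 G) : Qf 2 G ⧸ (Qf 2 G ⊓ centralizer (G : Set X)).subgroupOf (Qf 2 G)) := by
  intro h1
  rw [QuotientGroup.eq, mem_subgroupOf] at h1
  have h2 : (y ^ i * v * (y ^ i)⁻¹)⁻¹ * 1 ∈ Qf 2 G ⊓ centralizer (G : Set X) := h1
  rw [mul_one] at h2
  have h3 := (Subgroup.mem_inf.1 (inv_mem_iff.1 h2)).2
  apply hvC
  have h4 := conj_of_comm (cent_comm h3 (inv_mem (pow_mem hy i) : (y ^ i)⁻¹ ∈ G))
  have e : (y ^ i)⁻¹ * (y ^ i * v * (y ^ i)⁻¹) * ((y ^ i)⁻¹)⁻¹ = v := by group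
  rw [← e, h4]; exact h3

theorem inj_aux {y v : X} (hy : y ∈ G) {m : ℕ} (hm : Odd m) (hym : y ^ m = 1) (hv : v ∈ Zf S)
    (hvQ : v ∈ Qf 2 G)
    (hvC : v ∉ centralizer (G : Set X)) (l : ℕ) (hl : ∀ k, 1 ≤ k → k < l → y ^ k ≠ 1) :
    Function.Injective (fun i : Fin (l + 1) => if (i : ℕ) = l then
      ((1 : Qf 2 G) : Qf 2 G ⧸ (Qf 2 G ⊓ centralizer (G : Set X)).subgroupOf (Qf 2 G))
    else ((⟨y ^ (i : ℕ) * v * (y ^ (i : ℕ))⁻¹, h.conj_Q hy hvQ i⟩ : Qf 2 G) :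
      Qf 2 G ⧸ (Qf 2 G ⊓ centralizer (G : Set X)).subgroupOf (Qf 2 G))) := by
  intro i j hij
  by_contra hne
  have hne' : (i : ℕ) ≠ j := fun h1 => hne (Fin.ext h1)
  simp only at hij
  split_ifs at hij with h1 h2 h2
  · omega
  · exact h.one_aux hy hvQ hvC _ hij.symm
  · exact h.one_aux hy hvQ hvC _ hij
  · have hi := i.2
    have hj := j.2
    rcases Nat.lt_or_gt_of_ne hne' with h3 | h3
    · rw [QuotientGroup.eq, mem_subgroupOf] at hij
      obtain ⟨k, hk⟩ : ∃ k, (j : ℕ) = i + k := ⟨j - i, by omega⟩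
      refine hl k (by omega) (by omega) (h.cong_aux hy hm hym hv hvC (i := i) (k := k) ?_)
      rw [← hk]
      exact hij
    · have hij := hij.symm
      rw [QuotientGroup.eq, mem_subgroupOf] at hij
      obtain ⟨k, hk⟩ : ∃ k, (i : ℕ) = j + k := ⟨i - j, by omega⟩
      refine hl k (by omega) (by omega) (h.cong_aux hy hm hym hv hvC (i := j) (k := k) ?_)
      rw [← hk]
      exact hij

/-- `q = 3` -/
theorem q_eq : q = 3 := by
  obtain ⟨y, hy, hyq⟩ := h.dih.exists_y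
  have hyn : y ^ q = 1 := by rw [← hyq]; exact pow_orderOf_eq_one y
  obtain ⟨v, hv, hvC⟩ := Set.not_subset.mp h.dih.Z_not_cent
  have hvQ : v ∈ Qf 2 G := h.dih.Z_le_Q h.dih.syl hv
  by_contra hq3
  have h1 := Nat.card_le_card_of_injective _ (h.inj_aux hy h.dih.q_odd hyn hv hvQ hvC 4 (by
    intro k hk1 hk4 h7
    have h8 := orderOf_dvd_of_pow_eq_one h7
    rw [hyq] at h8
    have h9 := Nat.le_of_dvd (by omega) h8
    have h10 := h.dih.hq.two_le
    have h11 := h.dih.hq2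
    omega))
  rw [h.quot_card, Nat.card_eq_fintype_card, Fintype.card_fin] at h1
  omega

theorem card_G : Nat.card G = 6 * Nat.card (Qf 2 G) := by
  rw [← relIndex_mul_card (H52.PU.Qf_le (p := 2) G), h.dih.card, h.q_eq]

/-- fixed points of elements of order 3 -/
theorem fix3 {y v : X} (hy : y ∈ G) (hy3 : orderOf y = 3) (hv : v ∈ Qf 2 G) (hc : Commute v y) :
    v ∈ centralizer (G : Set X) := by
  obtain ⟨v₀, hv₀, hvC⟩ := Set.not_subset.mp h.dih.Z_not_cent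
  have hv₀ : v₀ ∈ Zf S := hv₀
  have hvQ : v₀ ∈ Qf 2 G := h.dih.Z_le_Q h.dih.syl hv₀
  have hyn : y ^ 3 = 1 := by rw [← hy3]; exact pow_orderOf_eq_one y
  have hy1 : y ≠ 1 := by
    rintro rfl
    rw [orderOf_one] at hy3
    omega
  have h1 := h.inj_aux hy (by decide : Odd 3) hyn hv₀ hvQ hvC 3 (by
    intro k hk1 hk4 h7
    have h8 := orderOf_dvd_of_pow_eq_one h7
    rw [hy3] at h8
    have h9 := Nat.le_of_dvd (by omega) h8
    omega)
  have h2 := (h1.bijective_of_nat_card_le (by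
    rw [h.quot_card, Nat.card_eq_fintype_card, Fintype.card_fin])).2
  obtain ⟨i, hi⟩ := h2 ((⟨v, hv⟩ : Qf 2 G) :
      Qf 2 G ⧸ (Qf 2 G ⊓ centralizer (G : Set X)).subgroupOf (Qf 2 G))
  simp only at hi
  split_ifs at hi with h3
  · rw [QuotientGroup.eq, mem_subgroupOf] at hi
    have h4 := (Subgroup.mem_inf.1 hi).2
    simpa using h4
  · exfalso
    rw [QuotientGroup.eq, mem_subgroupOf] at hi
    have h4 := (Subgroup.mem_inf.1 hi).2
    have h5 : (y ^ (i : ℕ) * v₀ * (y ^ (i : ℕ))⁻¹)⁻¹ * v ∈ centralizer (G : Set X) := h4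
    -- `y` commutes with `v₀`
    have h6 : Commute v₀ y := by
      have h7 : Commute y ((y ^ (i : ℕ) * v₀ * (y ^ (i : ℕ))⁻¹)⁻¹ * v) := cent_comm h5 hy
      have h8 : Commute y (y ^ (i : ℕ) * v₀ * (y ^ (i : ℕ))⁻¹)⁻¹ := by
        have := h7.mul_right hc.symm.inv_right
        simpa using this
      have h9 : Commute y (y ^ (i : ℕ) * v₀ * (y ^ (i : ℕ))⁻¹) := by simpa using h8.inv_right
      have h10 : Commute y (y ^ (i : ℕ)) := (Commute.refl y).pow_right _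
      have h11 : Commute y ((y ^ (i : ℕ))⁻¹ * (y ^ (i : ℕ) * v₀ * (y ^ (i : ℕ))⁻¹) * y ^ (i : ℕ)) :=
        (h10.inv_right.mul_right h9).mul_right h10
      have e : (y ^ (i : ℕ))⁻¹ * (y ^ (i : ℕ) * v₀ * (y ^ (i : ℕ))⁻¹) * y ^ (i : ℕ) = v₀ := by group
      rw [e] at h11
      exact h11.symm
    exact hvC (h.dih.central_of_odd (by decide : Odd 3) hy hyn hy1 hv₀ h6)

/-- squares of elements of `S` are commutators -/
theorem sq_comm {s : X} (hs : s ∈ S) : s ^ 2 ∈ ⁅S, S⁆ := by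
  rw [← h.cr.sup_eq] at hs
  obtain ⟨v, hv, w, hw, rfl⟩ :=
    (mem_sup_iff_of_le_normalizer (h.cr.hα.trans h.cr.sβ.S_norm_Q)).mp hs
  have hv2 := h.V_pow hv
  have hw2 := h.Q'_pow hw
  rw [pow_two] at hv2 hw2
  have e : (v * w) ^ 2 = ⁅v, w⁆ * (w * (v * v) * w) := by
    rw [commutatorElement_def, pow_two]
    have : w = w⁻¹ := (inv_eq_of_mul_eq_one_right hw2).symm
    calc v * w * (v * w) = v * w * (v⁻¹ * (v * v) * w) := by group
      _ = v * w * v⁻¹ * (v * v * w) := by group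
      _ = v * w * v⁻¹ * (w⁻¹ * w * (v * v * w)) := by group
      _ = v * w * v⁻¹ * w⁻¹ * (w * (v * v) * w) := by group
  rw [e, hv2, mul_one, hw2, mul_one]
  exact commutator_mem_commutator (h.cr.hα hv) (h.cr.sβ.Q_le hw)

/-- `[S, S]` contains no nontrivial central element of `G` -/
theorem comm_inf {x : X} (hx : x ∈ ⁅S, S⁆) (hxC : x ∈ centralizer (G : Set X)) : x = 1 := by
  obtain ⟨t, ht, htQ⟩ := Set.not_subset.mp h.cr.nle'
  have htS : t ∈ S := h.cr.hβ ht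
  have hVS : ∀ v ∈ Vf 2 G, ∀ s ∈ S, ⁅v, s⁆ ∈ Zf S := by
    intro v hv s hs
    have h1 : ⁅v, s⁆ ∈ ⁅Vf 2 G, S⁆ := commutator_mem_commutator hv hs
    rw [h.cr.comm_eq] at h1
    exact h.cr.comm_le_Z h1
  let K : Subgroup X :=
    { carrier := {x | ∃ v ∈ Vf 2 G, x = ⁅v, t⁆}
      one_mem' := ⟨1, one_mem _, by simp⟩
      mul_mem' := by
        rintro _ _ ⟨a, ha, rfl⟩ ⟨b, hb, rfl⟩
        refine ⟨b * a, mul_mem hb ha, ?_⟩
        rw [cml, conj_of_comm (h.dih.V_comm hb (h.dih.V_le (h.dih.Z_le_V (hVS a ha t htS))))]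
      inv_mem' := by
        rintro _ ⟨a, ha, rfl⟩
        refine ⟨a⁻¹, inv_mem ha, ?_⟩
        have e : ⁅a⁻¹, t⁆ = a⁻¹ * ⁅a, t⁆⁻¹ * a⁻¹⁻¹ := by
          simp only [commutatorElement_def]; group
        rw [e, conj_of_comm (h.dih.V_comm (inv_mem ha)
          (inv_mem (h.dih.V_le (h.dih.Z_le_V (hVS a ha t htS)))))] }
  have hKZ : K ≤ Zf S := by
    rintro _ ⟨v, hv, rfl⟩
    exact hVS v hv t htS
  -- `S = V ∪ V t`
  have hS : ∀ s ∈ S, s ∈ Vf 2 G ∨ ∃ v ∈ Vf 2 G, s = v * t := by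
    intro s hs
    rcases em (s ∈ Qf 2 G) with h1 | h1
    · left; rw [h.V_eq]; exact h1
    · right
      have h2 : ((Qf 2 G).subgroupOf S).index = 2 := h.dih.index_aux.1
      have h3 := (Subgroup.mul_mem_iff_of_index_two h2 (a := ⟨s, hs⟩) (b := ⟨t⁻¹, inv_mem htS⟩))
      simp only [mem_subgroupOf] at h3
      have h4 : s * t⁻¹ ∈ Qf 2 G := h3.2 ⟨fun h4 => absurd h4 h1,
        fun h4 => absurd (by simpa using h4) htQ⟩
      refine ⟨s * t⁻¹, ?_, by group⟩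
      rw [h.V_eq]; exact h4
  have hK1 : ∀ v ∈ Vf 2 G, ∀ s ∈ S, ⁅v, s⁆ ∈ K := by
    intro v hv s hs
    rcases hS s hs with h1 | ⟨u, hu, rfl⟩
    · rw [commutatorElement_eq_one_iff_commute.2 (h.dih.V_comm hv (h.dih.V_le h1))]
      exact one_mem _
    · have h3 : Commute u ⁅v, t⁆ := (Zf_comm (hVS v hv t htS) (h.cr.hα hu))
      rw [cmr, commutatorElement_eq_one_iff_commute.2 (h.dih.V_comm hv (h.dih.V_le hu)), one_mul,
        conj_of_comm h3]
      exact ⟨v, hv, rfl⟩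
  have hSK : ⁅S, S⁆ ≤ K := by
    rw [commutator_le]
    intro a ha b hb
    rcases hS a ha with h1 | ⟨u, hu, rfl⟩
    · exact hK1 a h1 b hb
    · rw [cml]
      refine mul_mem ?_ (hK1 u hu b hb)
      have h4 : ⁅t, b⁆ ∈ K := by
        rcases hS b hb with h1 | ⟨w, hw, rfl⟩
        · exact c_symm_mem (hK1 b h1 t htS)
        · have h5 : ⁅t, w⁆ ∈ K := c_symm_mem (hK1 w hw t htS)
          rw [cmr, commutatorElement_self, mul_one, mul_inv_cancel, mul_one]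
          exact h5
      rw [conj_of_comm (show Commute u ⁅t, b⁆ from Zf_comm (hKZ h4) (h.cr.hα hu))]
      exact h4
  obtain ⟨v, hv, rfl⟩ := hSK hx
  have h1 := h.dih.key t htS htQ v hv hxC
  exact commutatorElement_eq_one_iff_commute.2 (Zf_comm h1 htS).symm

end Sims

end H51.PuDih
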