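import Mathlib

/-!
Identification of `S₄` and `S₄ × C₂` by the action on the Sylow `3`-subgroups.
-/

set_option autoImplicit false
set_option linter.unusedSectionVars false

open Subgroup
open scoped commutatorElement

namespace H51.PuS4

variable {G : Type*} [Group G] [Finite G]

/-- the hypotheses -/
structure Hyp (Q C : Subgroup G) : Prop where
  norm : Q.Normal
  pQ : IsPGroup 2 Q
  max : ∀ N : Subgroup G, N.Normal → IsPGroup 2 N → N ≤ Q
  CZ : C ≤ center G
  CQ : C ≤ Q
  cQ : Nat.card Q = 4 * Nat.card C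
  cG : Nat.card G = 6 * Nat.card Q
  cC : Nat.card C ≤ 2
  fix : ∀ y : G, orderOf y = 3 → ∀ v ∈ Q, Commute v y → v ∈ C

namespace Hyp

variable {Q C : Subgroup G} (h : Hyp Q C)

include h

theorem card_G : Nat.card G = 24 * Nat.card C := by rw [h.cG, h.cQ]; ring

theorem C_pos : Nat.card C = 1 ∨ Nat.card C = 2 := by
  have := Nat.card_pos (α := C)
  have := h.cC
  omega

theorem card_P (P : Sylow 3 G) : Nat.card P = 3 := by
  have := Fact.mk (by norm_num : Nat.Prime 3)
  rw [P.card_eq_multiplicity, h.card_G]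
  rcases h.C_pos with h1 | h1
  · rw [h1, mul_one]
    have : (24 : ℕ) = 3 ^ 1 * 8 := by norm_num
    rw [this, Nat.factorization_mul (by norm_num) (by norm_num), Nat.Prime.factorization_pow (by norm_num)]
    have h2 : Nat.factorization 8 3 = 0 := Nat.factorization_eq_zero_of_not_dvd (by norm_num)
    simp [h2]
  · rw [h1]
    have : (24 * 2 : ℕ) = 3 ^ 1 * 16 := by norm_num
    rw [this, Nat.factorization_mul (by norm_num) (by norm_num), Nat.Prime.factorization_pow (by norm_num)]
    have h2 : Nat.factorization 16 3 = 0 := Nat.factorization_eq_zero_of_not_dvd (by norm_num)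
    simp [h2]

theorem exists_y (P : Sylow 3 G) : ∃ y ∈ P, orderOf y = 3 ∧ (P : Subgroup G) = zpowers y := by
  have := Fact.mk (by norm_num : Nat.Prime 3)
  have h1 : 3 ∣ Nat.card P := by rw [h.card_P P]
  obtain ⟨y, hy⟩ := exists_prime_orderOf_dvd_card' 3 h1
  refine ⟨y, y.2, by rw [orderOf_coe, hy], ?_⟩
  symm
  apply Subgroup.eq_of_le_of_card_ge
  · rw [zpowers_le]; exact y.2
  · rw [Nat.card_zpowers, orderOf_coe, hy]
    exact (h.card_P P).le

theorem PQ (P : Sylow 3 G) {x : G} (hx : x ∈ P) (hxQ : x ∈ Q) : x = 1 := by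
  obtain ⟨k, hk⟩ := h.pQ ⟨x, hxQ⟩
  have hk2 : x ^ 2 ^ k = 1 := by simpa using congrArg Subtype.val hk
  have h1 : orderOf x ∣ 3 := by
    have := Subgroup.orderOf_dvd_natCard (P : Subgroup G) hx
    have h2 : Nat.card (P : Subgroup G) = 3 := h.card_P P
    rwa [h2] at this
  have h2 : orderOf x ∣ Nat.gcd 3 (2 ^ k) := Nat.dvd_gcd h1 (orderOf_dvd_of_pow_eq_one hk2)
  have h3 : Nat.gcd 3 (2 ^ k) = 1 := Nat.Coprime.pow_right k (by norm_num)
  rw [h3, Nat.dvd_one] at h2
  exact orderOf_eq_one_iff.1 h2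

/-- elements of `Q` normalising `P` are in `C` -/
theorem norm_C (P : Sylow 3 G) {g : G} (hg : g ∈ normalizer ((P : Subgroup G) : Set G)) (hgQ : g ∈ Q) :
    g ∈ C := by
  obtain ⟨y, hy, hy3, -⟩ := h.exists_y P
  apply h.fix y hy3 g hgQ
  rw [← commutatorElement_eq_one_iff_commute]
  apply h.PQ P
  · have h1 := (mem_normalizer_iff.1 hg y).1 hy
    rw [commutatorElement_def]
    exact mul_mem h1 (inv_mem hy)
  · have h1 := h.norm.conj_mem _ (inv_mem hgQ) y
    have e : ⁅g, y⁆ = g * (y * g⁻¹ * y⁻¹) := by rw [commutatorElement_def]; group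
    rw [e]
    exact mul_mem hgQ h1

theorem card_syl_ne : Nat.card (Sylow 3 G) ≠ 1 := by
  have := Fact.mk (by norm_num : Nat.Prime 3)
  intro h1
  obtain ⟨P⟩ : Nonempty (Sylow 3 G) := inferInstance
  have h2 : (P : Subgroup G).Normal := by
    rw [Sylow.card_eq_index_normalizer P, index_eq_one] at h1
    exact normalizer_eq_top_iff.1 h1
  have h3 : Q ≤ C := fun g hg => h.norm_C P (by
    rw [normalizer_eq_top_iff.2 h2]; exact mem_top g) hg
  have h4 := Nat.le_of_dvd Nat.card_pos (Subgroup.card_dvd_of_le h3)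
  rw [h.cQ] at h4
  have := Nat.card_pos (α := C)
  omega

theorem card_syl : Nat.card (Sylow 3 G) = 4 := by
  have := Fact.mk (by norm_num : Nat.Prime 3)
  obtain ⟨P⟩ : Nonempty (Sylow 3 G) := inferInstance
  have h1 : Nat.card (Sylow 3 G) * Nat.card (normalizer ((P : Subgroup G) : Set G)) =
      24 * Nat.card C := by
    have h0 : Nat.card (Sylow 3 G) = (normalizer ((P : Subgroup G) : Set G)).index :=
      Sylow.card_eq_index_normalizer P
    rw [h0, ← h.card_G, index_mul_card]
  have h2 : 3 * Nat.card C ∣ Nat.card (normalizer ((P : Subgroup G) : Set G)) := by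
    have h3 : (P : Subgroup G) ⊔ C ≤ normalizer ((P : Subgroup G) : Set G) := by
      apply sup_le le_normalizer
      intro c hc
      rw [mem_normalizer_iff]
      intro x
      have hc2 := mem_center_iff.1 (h.CZ hc) x
      have : c * x * c⁻¹ = x := by rw [← hc2]; group
      rw [this]
    refine dvd_trans ?_ (Subgroup.card_dvd_of_le h3)
    have h4 : Nat.Coprime 3 (Nat.card C) := by
      rcases h.C_pos with h5 | h5 <;> rw [h5] <;> norm_num
    apply h4.mul_dvd_of_dvd_of_dvd
    · have h5 := Subgroup.card_dvd_of_le (le_sup_left : (P : Subgroup G) ≤ (P : Subgroup G) ⊔ C)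
      have h6 : Nat.card (P : Subgroup G) = 3 := h.card_P P
      rwa [h6] at h5
    · exact Subgroup.card_dvd_of_le le_sup_right
  obtain ⟨m, hm⟩ := h2
  rw [hm] at h1
  have hpos := Nat.card_pos (α := C)
  have h3 : Nat.card (Sylow 3 G) * m = 8 := by
    have : (3 * Nat.card C) * (Nat.card (Sylow 3 G) * m) = (3 * Nat.card C) * 8 := by
      rw [show 3 * Nat.card C * 8 = 24 * Nat.card C by ring, ← h1]; ring
    exact Nat.eq_of_mul_eq_mul_left (by omega) this
  have h4 : Nat.card (Sylow 3 G) ≡ 1 [MOD 3] := card_sylow_modEq_one 3 G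
  have h5 := h.card_syl_ne
  have h6 : Nat.card (Sylow 3 G) ∣ 8 := Dvd.intro _ h3
  have h7 : Nat.card (Sylow 3 G) ≤ 8 := Nat.le_of_dvd (by norm_num) h6
  generalize Nat.card (Sylow 3 G) = n at *
  interval_cases n <;> first | rfl | (exfalso; revert h4 h6 h5; decide)

/-- the kernel of the action on the Sylow 3-subgroups is `C` -/
theorem ker_eq (g : G) : MulAction.toPermHom G (Sylow 3 G) g = 1 ↔ g ∈ C := by
  have := Fact.mk (by norm_num : Nat.Prime 3)
  constructor
  · intro hg
    set K := (MulAction.toPermHom G (Sylow 3 G)).ker with hK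
    have hKn : K.Normal := inferInstance
    have hKN : ∀ k ∈ K, ∀ P : Sylow 3 G, k ∈ normalizer ((P : Subgroup G) : Set G) := by
      intro k hk P
      rw [MonoidHom.mem_ker] at hk
      have h1 : k • P = P := by
        have := congrArg (fun f : Equiv.Perm (Sylow 3 G) => f P) hk
        simpa using this
      exact Sylow.smul_eq_iff_mem_normalizer.1 h1
    have h3 : ¬ 3 ∣ Nat.card K := by
      intro hd
      obtain ⟨y, hy⟩ := exists_prime_orderOf_dvd_card' 3 hd
      have hy3 : orderOf (y : G) = 3 := by rw [orderOf_coe, hy]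
      have hyP : ∀ P : Sylow 3 G, (P : Subgroup G) = zpowers (y : G) := by
        intro P
        have hz : IsPGroup 3 (zpowers (y : G)) := by
          apply IsPGroup.of_card (n := 1)
          rw [Nat.card_zpowers, hy3, pow_one]
        have h4 := hz.inf_normalizer_sylow P
        have h5 : (y : G) ∈ zpowers (y : G) ⊓ (P : Subgroup G) := by
          rw [← h4]
          exact Subgroup.mem_inf.2 ⟨mem_zpowers _, hKN _ y.2 P⟩
        symm
        apply Subgroup.eq_of_le_of_card_ge
        · rw [zpowers_le]; exact (Subgroup.mem_inf.1 h5).2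
        · rw [Nat.card_zpowers, hy3]
          exact (h.card_P P).le
      apply h.card_syl_ne
      rw [Nat.card_eq_one_iff_unique]
      exact ⟨⟨fun P R => Sylow.ext ((hyP P).trans (hyP R).symm)⟩, inferInstance⟩
    have h2 : IsPGroup 2 K := by
      have h4 : Nat.card K ∣ 3 * 2 ^ 4 := by
        refine (Subgroup.card_subgroup_dvd_card K).trans ?_
        rw [h.card_G]
        rcases h.C_pos with h5 | h5 <;> rw [h5] <;> norm_num
      have h5 : Nat.Coprime (Nat.card K) 3 :=
        ((Nat.Prime.coprime_iff_not_dvd (by norm_num)).2 h3).symm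
      have h6 := h5.dvd_of_dvd_mul_left h4
      obtain ⟨k, -, hk⟩ := (Nat.dvd_prime_pow Nat.prime_two).1 h6
      exact IsPGroup.of_card hk
    have hKQ := h.max K hKn h2
    obtain ⟨P⟩ : Nonempty (Sylow 3 G) := inferInstance
    have hgK : g ∈ K := hg
    exact h.norm_C P (hKN g hgK P) (hKQ hgK)
  · intro hg
    ext P : 1
    have h1 : g • P = P := by
      rw [Sylow.smul_eq_iff_mem_normalizer]
      show g ∈ normalizer ((P : Subgroup G) : Set G)
      rw [mem_normalizer_iff]
      intro x
      have hc2 := mem_center_iff.1 (h.CZ hg) x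
      have : g * x * g⁻¹ = x := by rw [← hc2]; group
      rw [this]
    simpa using h1

theorem perm_equiv : Nonempty (Equiv.Perm (Sylow 3 G) ≃* Equiv.Perm (Fin 4)) := by
  exact ⟨(Finite.equivFinOfCardEq h.card_syl).permCongrHom⟩

theorem card_perm : Nat.card (Equiv.Perm (Sylow 3 G)) = 24 := by
  obtain ⟨e⟩ := h.perm_equiv
  rw [Nat.card_congr e.toEquiv, Nat.card_eq_fintype_card, Fintype.card_perm, Fintype.card_fin]
  rfl

/-- the case `C = 1` -/
theorem case_one (h1 : Nat.card C = 1) : Nonempty (G ≃* Equiv.Perm (Fin 4)) := by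
  obtain ⟨e⟩ := h.perm_equiv
  have hinj : Function.Injective (MulAction.toPermHom G (Sylow 3 G)) := by
    rw [injective_iff_map_eq_one]
    intro g hg
    have h2 := (h.ker_eq g).1 hg
    rw [Subgroup.card_eq_one] at h1
    rwa [h1, mem_bot] at h2
  have hbij := hinj.bijective_of_nat_card_le (by rw [h.card_perm, h.card_G, h1])
  exact ⟨(MulEquiv.ofBijective _ hbij).trans e⟩

/-- the case `|C| = 2` -/
theorem case_two (h1 : Nat.card C = 2) (φ : G →* Multiplicative (ZMod 2))
    (hφ : ∀ c ∈ C, φ c = 1 → c = 1) :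
    Nonempty (G ≃* Equiv.Perm (Fin 4) × Multiplicative (ZMod 2)) := by
  obtain ⟨e⟩ := h.perm_equiv
  have hinj : Function.Injective ((MulAction.toPermHom G (Sylow 3 G)).prod φ) := by
    rw [injective_iff_map_eq_one]
    intro g hg
    rw [MonoidHom.prod_apply, Prod.mk_eq_one] at hg
    exact hφ g ((h.ker_eq g).1 hg.1) hg.2
  have hbij := hinj.bijective_of_nat_card_le (by
    rw [Nat.card_prod, h.card_perm, h.card_G, h1]
    have : Nat.card (Multiplicative (ZMod 2)) = 2 := by
      rw [Nat.card_congr Multiplicative.toAdd, Nat.card_zmod]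
    rw [this])
  exact ⟨(MulEquiv.ofBijective _ hbij).trans (e.prodCongr (MulEquiv.refl _))⟩

end Hyp

/-- transfer of a homomorphism of a subgroup of odd index -/
theorem exists_phi (S : Subgroup G) (hS : Odd S.index) (ϕ : S →* Multiplicative (ZMod 2))
    (c : G) (hc : c ∈ center G) (hcS : c ∈ S) (hϕ : ϕ ⟨c, hcS⟩ ≠ 1) :
    ∃ φ : G →* Multiplicative (ZMod 2), φ c ≠ 1 := by
  have hfi : S.FiniteIndex := inferInstance
  refine ⟨MonoidHom.transfer ϕ, ?_⟩
  have key : ∀ (k : ℕ) (g₀ : G), g₀⁻¹ * c ^ k * g₀ ∈ S → g₀⁻¹ * c ^ k * g₀ = c ^ k := by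
    intro k g₀ _
    have h1 := mem_center_iff.1 (Subgroup.pow_mem _ hc k) g₀
    rw [mul_assoc, ← h1]; group
  rw [MonoidHom.transfer_eq_pow ϕ c key]
  have e : (⟨c ^ S.index, MonoidHom.transfer_eq_pow_aux c key⟩ : S) = (⟨c, hcS⟩ : S) ^ S.index :=
    Subtype.ext (by simp)
  rw [e, map_pow]
  obtain ⟨k, hk⟩ := hS
  have h2 : ∀ x : Multiplicative (ZMod 2), x ^ 2 = 1 := by decide
  rw [hk, pow_succ, pow_mul, h2, one_pow, one_mul]
  exact hϕ

/-- a homomorphism to `C₂` detecting an element outside the commutator subgroup, if squares are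
commutators -/
theorem exists_hom {S : Type*} [Group S] (hsq : ∀ s : S, s ^ 2 ∈ commutator S) (c : S)
    (hc : c ∉ commutator S) : ∃ ϕ : S →* Multiplicative (ZMod 2), ϕ c ≠ 1 := by
  let E := Additive (Abelianization S)
  have h2 : ∀ x : E, 2 • x = 0 := by
    intro x
    obtain ⟨s, hs⟩ := QuotientGroup.mk'_surjective (commutator S) (Additive.toMul x)
    have h3 : (QuotientGroup.mk' (commutator S) s) ^ 2 = 1 := by
      rw [← map_pow]
      exact (QuotientGroup.eq_one_iff _).2 (hsq s)
    rw [hs] at h3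
    exact h3
  let _ : Module (ZMod 2) E := AddCommGroup.zmodModule h2
  have hne : (Additive.ofMul (Abelianization.of c) : E) ≠ 0 := by
    intro h0
    apply hc
    have : Abelianization.of c = 1 := h0
    exact (QuotientGroup.eq_one_iff _).1 this
  have h3 : ¬ ∀ f : Module.Dual (ZMod 2) E, f (Additive.ofMul (Abelianization.of c) : E) = 0 := by
    rw [Module.forall_dual_apply_eq_zero_iff]
    exact hne
  push Not at h3
  obtain ⟨f, hf⟩ := h3
  refine ⟨(AddMonoidHom.toMultiplicativeRight f.toAddMonoidHom).comp Abelianization.of, ?_⟩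
  intro h4
  exact hf h4

end H51.PuS4
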