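import Cfsg.Agent.Lib.H51.QdStab3
import Cfsg.Agent.Lib.H51.SL2Bound2

/-! No quadratic action for `PSL₂(q)`, `q` odd. -/

set_option autoImplicit false

namespace H51.QuadL2

open Cfsg Subgroup Matrix H85.SL2 H51.NatSL2 H51.SL2Pair H51.QdStab
open scoped MatrixGroups

/-- the ring computation -/
theorem ring_core {R : Type*} [Ring R] (h2 : ∀ x : R, x + x = 0 → x = 0) {A B : R} (hA : A * A = 0) (hB : B * B = 0)
    (h1 : (1 + A) * (1 + B) * (1 + A) = (1 + B) * (1 + A) * (1 + B))
    (hw : (1 + A) * (1 + B) * (1 + A) * ((1 + A) * (1 + B) * (1 + A)) = 1) : A = B := by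
  have e1 : (1 + A) * (1 + B) * (1 + A) = 1 + A + A + B + A * B + B * A + A * B * A + A * A := by noncomm_ring
  have e2 : (1 + B) * (1 + A) * (1 + B) = 1 + B + B + A + A * B + B * A + B * A * B + B * B := by noncomm_ring
  rw [hA, add_zero] at e1
  rw [hB, add_zero] at e2
  have h3 : A + A * B * A = B + B * A * B := by
    have h4 : (1 + A + A + B + A * B + B * A + A * B * A) - (1 + B + B + A + A * B + B * A + B * A * B) = 0 := by
      rw [← e1, ← e2, h1, sub_self]
    have h5 : (1 + A + A + B + A * B + B * A + A * B * A) - (1 + B + B + A + A * B + B * A + B * A * B) =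
      (A + A * B * A) - (B + B * A * B) := by abel
    rw [h5] at h4
    exact sub_eq_zero.1 h4
  have h4 : A * B + A * B * A * B = 0 := by
    have h5 : A * (A + A * B * A) = A * (B + B * A * B) := by rw [h3]
    have h6 : A * (A + A * B * A) = 0 := by
      rw [mul_add, ← mul_assoc, ← mul_assoc, hA]; simp
    rw [h6] at h5
    rw [h5]; noncomm_ring
  set w := (1 + A) * (1 + B) * (1 + A) with hwdef
  have h5 : w * (A * B) = B * A * B := by
    rw [e1]
    have : (1 + A + A + B + A * B + B * A + A * B * A) * (A * B) =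
        (A * B + A * B * A * B) + (A * A) * B + (A * A) * B + B * A * B + B * (A * A) * B + A * B * (A * A) * B := by
      noncomm_ring
    rw [this, h4, hA]; simp
  have h6 : w * (B * A * B) = - (A * B) := by
    rw [e1]
    have : (1 + A + A + B + A * B + B * A + A * B * A) * (B * A * B) =
        B * A * B + 2 * (A * B * A * B) + (B * B) * A * B + A * (B * B) * A * B + B * (A * B * A * B) +
          A * B * (A * B * A * B) := by
      noncomm_ring
    have h7 : A * B * A * B = - (A * B) := by rw [← add_eq_zero_iff_eq_neg, add_comm]; exact h4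
    rw [this, h7, hB]
    have h8 : A * B * -(A * B) = A * B := by
      have : A * B * -(A * B) = -(A * B * A * B) := by noncomm_ring
      rw [this, h7, neg_neg]
    rw [h8]; noncomm_ring
  have h7 : A * B = - (A * B) := by
    calc A * B = (w * w) * (A * B) := by rw [hw, one_mul]
      _ = w * (w * (A * B)) := by rw [mul_assoc]
      _ = _ := by rw [h5, h6]
  have h8 : A * B = 0 := h2 _ (by nth_rewrite 1 [h7]; exact neg_add_cancel _)
  rw [h8, zero_mul, add_zero, mul_assoc, h8, mul_zero, add_zero] at h3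
  exact h3

/-- the commutative group structure -/
abbrev cgV {G : Type*} [Group G] (V : Subgroup G) [h : IsMulCommutative V] : CommGroup V :=
  { (inferInstance : Group V) with mul_comm := fun a b => h.is_comm.comm a b }

attribute [local instance] cgV

/-- the linear action -/
def rho {G : Type*} [Group G] (V : Subgroup G) [IsMulCommutative V] :
    normalizer (V : Set G) →* AddMonoid.End (Additive V) where
  toFun g := MonoidHom.toAdditive (MonoidHom.mk' (fun a : V => (⟨(g : G) * a * (g : G)⁻¹, (mem_normalizer_iff.1 g.2 a).1 a.2⟩ : V)) (by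
      intro a b
      apply Subtype.ext
      show (g : G) * (a * b : G) * (g : G)⁻¹ = (g : G) * a * (g : G)⁻¹ * ((g : G) * b * (g : G)⁻¹)
      generalize (g : G) = z
      group))
  map_one' := by
    apply AddMonoidHom.ext
    intro w
    apply Additive.toMul.injective
    apply Subtype.ext
    show (1 : G) * (w.toMul : G) * (1 : G)⁻¹ = (w.toMul : G)
    rw [one_mul, inv_one, mul_one]
  map_mul' g h := by
    apply AddMonoidHom.ext
    intro w
    apply Additive.toMul.injective
    apply Subtype.ext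
    show ((g : G) * (h : G)) * (w.toMul : G) * ((g : G) * (h : G))⁻¹ = (g : G) * ((h : G) * (w.toMul : G) * (h : G)⁻¹) * (g : G)⁻¹
    generalize (g : G) = z
    generalize (h : G) = z'
    group

theorem rho_apply {G : Type*} [Group G] (V : Subgroup G) [IsMulCommutative V] (g : normalizer (V : Set G)) (w : Additive V) :
    ((rho V g w).toMul : G) = g * (w.toMul : G) * (g : G)⁻¹ := rfl

theorem rho_eq_iff {G : Type*} [Group G] (V : Subgroup G) [IsMulCommutative V] (g : normalizer (V : Set G)) :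
    rho V g = 1 ↔ (g : G) ∈ centralizer (V : Set G) := by
  constructor
  · intro h
    rw [mem_centralizer_iff]
    intro v hv
    have h1 := congrArg (fun f : AddMonoid.End (Additive V) => ((f (Additive.ofMul ⟨v, hv⟩)).toMul : G)) h
    have h2 : (g : G) * v * (g : G)⁻¹ = v := h1
    exact (mul_inv_eq_iff_eq_mul.1 h2).symm
  · intro h
    apply AddMonoidHom.ext
    intro w
    apply Additive.toMul.injective
    apply Subtype.ext
    have h1 := (mem_centralizer_iff.1 h) _ w.toMul.2
    show (g : G) * (w.toMul : G) * (g : G)⁻¹ = (w.toMul : G)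
    rw [mul_inv_eq_iff_eq_mul]
    exact h1.symm

theorem rho_quad {G : Type*} [Group G] (V : Subgroup G) [IsMulCommutative V] (g : normalizer (V : Set G))
    (hg : Quad (g : G) V) : (rho V g - 1) * (rho V g - 1) = 0 := by
  apply AddMonoidHom.ext
  intro w
  apply Additive.toMul.injective
  apply Subtype.ext
  have hX : ∀ w : Additive V, (((rho V g - 1) w).toMul : G) = g * (w.toMul : G) * (g : G)⁻¹ * (w.toMul : G)⁻¹ := by
    intro w
    have h1 : (rho V g - 1) w = rho V g w - w := rfl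
    rw [h1, toMul_sub, div_eq_mul_inv]
    rfl
  show (((rho V g - 1) ((rho V g - 1) w)).toMul : G) = 1
  rw [hX, hX, hg _ w.toMul.2, mul_inv_cancel]

theorem exists_pow {G : Type*} [Group G] [Finite G] {p : ℕ} [hp : Fact p.Prime] {V : Subgroup G} (hV : IsPGroup p V)
    {a : G} (ha : a ∈ normalizer (V : Set G)) (hq : Quad a V) : ∃ j, a ^ p ^ j ∈ centralizer (V : Set G) := by
  apply H51.QdStab2.pow_centralizes (A := V ⊓ centralizer ({a} : Set G)) (hV.to_le inf_le_left)
  · intro v hv
    refine Subgroup.mem_inf.2 ⟨V.mul_mem ((mem_normalizer_iff.1 ha v).1 hv) (V.inv_mem hv), ?_⟩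
    rw [mem_centralizer_singleton_iff]
    have h1 := hq v hv
    rw [mul_inv_eq_iff_eq_mul] at h1
    exact h1.symm
  · intro v hv
    have h1 := (Subgroup.mem_inf.1 hv).2
    rw [mem_centralizer_singleton_iff] at h1
    rw [← h1, mul_inv_cancel_right]

theorem hqone {F : Type*} [Field F] (M : SL(2, F)) :
    (QuotientGroup.mk' (Subgroup.center SL(2, F))) M = 1 ↔ q F M = 1 := by
  rw [QuotientGroup.mk'_apply, QuotientGroup.eq_one_iff, ← SpecialLinearGroup.toPGL_ker]
  rfl

/-- lifting `p`-elements -/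
theorem exists_lift {F : Type*} [Field F] {p : ℕ} [hp : Fact p.Prime] (hp2 : p ≠ 2)
    {x : Matrix.ProjectiveSpecialLinearGroup (Fin 2) F} {j : ℕ} (hj : x ^ p ^ j = 1) :
    ∃ u : SL(2, F), (QuotientGroup.mk' (Subgroup.center SL(2, F))) u = x ∧ u ^ p ^ j = 1 := by
  obtain ⟨u, hu⟩ := QuotientGroup.mk'_surjective (Subgroup.center SL(2, F)) x
  have h1 : (QuotientGroup.mk' (Subgroup.center SL(2, F))) (u ^ p ^ j) = 1 := by
    rw [map_pow, hu, hj]
  rw [hqone] at h1
  rcases q_eq_one h1 with h2 | h2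
  · exact ⟨u, hu, h2⟩
  · refine ⟨-u, ?_, ?_⟩
    · have h3 : (QuotientGroup.mk' (Subgroup.center SL(2, F))) (-1) = 1 := by
        rw [hqone, q_neg, map_one]
      have h4 : -u = (-1) * u := by simp
      rw [h4, map_mul, h3, one_mul, hu]
    · rw [Odd.neg_pow ((hp.out.odd_of_ne_two hp2).pow), h2, neg_neg]

theorem exists_up {F : Type*} [Field F] [Finite F] {p : ℕ} [hp : Fact p.Prime] [CharP F p] {u : SL(2, F)}
    (hu : u ≠ 1) (hup : ∃ j, u ^ p ^ j = 1) : ∃ (g : SL(2, F)) (t : F), t ≠ 0 ∧ u = g * up t * g⁻¹ := by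
  have := Fintype.ofFinite F
  have h1 : IsPGroup p (Subgroup.zpowers u) := by
    obtain ⟨j, hj⟩ := hup
    rw [IsPGroup.iff_card, Nat.card_zpowers]
    obtain ⟨i, -, hi⟩ := (Nat.dvd_prime_pow hp.out).1 (orderOf_dvd_of_pow_eq_one hj)
    exact ⟨i, hi⟩
  obtain ⟨P, hP⟩ := h1.exists_le_sylow
  obtain ⟨g, hg⟩ := exists_conj_up p P
  obtain ⟨t, ht⟩ := (hg u).1 (hP (Subgroup.mem_zpowers u))
  have hu2 : u = g * up t * g⁻¹ := by rw [← ht]; group
  refine ⟨g, t, ?_, hu2⟩
  rintro rfl
  apply hu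
  rw [hu2]
  have : up (0 : F) = 1 := by
    apply Subtype.ext
    ext i j
    fin_cases i <;> fin_cases j <;> simp
  rw [this]; group

theorem rel_sl2 {F : Type*} [Field F] {t : F} (ht : t ≠ 0) :
    ∃ k : SL(2, F), k * up t * k⁻¹ = lo (-t⁻¹) ∧ up t * lo (-t⁻¹) * up t = k ∧
      lo (-t⁻¹) * up t * lo (-t⁻¹) = k ∧ k * k = -1 ∧ q F (up t * (lo (-t⁻¹))⁻¹) ≠ 1 := by
  let k : SL(2, F) := ⟨!![0, t; -t⁻¹, 0], by rw [Matrix.det_fin_two_of]; field_simp; ring⟩
  have hk : k * up t * k⁻¹ = lo (-t⁻¹) := by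
    rw [mul_inv_eq_iff_eq_mul]
    apply Subtype.ext
    ext i j
    rw [mul_apply2, mul_apply2]
    fin_cases i <;> fin_cases j <;> simp [k]
  have hr1 : up t * lo (-t⁻¹) * up t = k := by
    apply Subtype.ext
    ext i j
    rw [mul_apply2, mul_apply2, mul_apply2]
    fin_cases i <;> fin_cases j <;> simp [k, ht]
  have hr2 : lo (-t⁻¹) * up t * lo (-t⁻¹) = k := by
    apply Subtype.ext
    ext i j
    rw [mul_apply2, mul_apply2, mul_apply2]
    fin_cases i <;> fin_cases j <;> simp [k, ht]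
  have hkk : k * k = -1 := by
    apply Subtype.ext
    ext i j
    rw [mul_apply2]
    fin_cases i <;> fin_cases j <;> simp [k, ht]
  refine ⟨k, hk, hr1, hr2, hkk, ?_⟩
  intro h6
  have h7 : (up t * (lo (-t⁻¹))⁻¹ : SL(2, F)).1 0 1 = t := by
    rw [mul_apply2]
    simp
  rcases q_eq_one h6 with h8 | h8
  · rw [h8] at h7; simp at h7; exact ht h7.symm
  · rw [h8] at h7; simp at h7; exact ht h7.symm

theorem rel_psl {F : Type*} [Field F] [Finite F] {p : ℕ} [hp : Fact p.Prime] (hp2 : p ≠ 2) [CharP F p]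
    {x : Matrix.ProjectiveSpecialLinearGroup (Fin 2) F} (hx : x ≠ 1) {j : ℕ} (hj : x ^ p ^ j = 1) :
    ∃ l : Matrix.ProjectiveSpecialLinearGroup (Fin 2) F,
      x * (l * x * l⁻¹) * x = (l * x * l⁻¹) * x * (l * x * l⁻¹) ∧
      x * (l * x * l⁻¹) * x * (x * (l * x * l⁻¹) * x) = 1 ∧ x * (l * x * l⁻¹)⁻¹ ≠ 1 := by
  obtain ⟨u, hu, hup⟩ := exists_lift hp2 hj
  have hu1 : u ≠ 1 := by
    rintro rfl
    rw [map_one] at hu
    exact hx hu.symm
  obtain ⟨g, t, ht, hgt⟩ := exists_up (p := p) hu1 ⟨j, hup⟩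
  obtain ⟨k, hk, hr1, hr2, hkk, hne⟩ := rel_sl2 ht
  set π := QuotientGroup.mk' (Subgroup.center SL(2, F)) with hπ
  have hπ1 : π (-1) = 1 := by rw [hqone, q_neg, map_one]
  have hxe : x = π (g * up t * g⁻¹) := by rw [← hu, hgt]
  have hye : π (g * k * g⁻¹) * x * (π (g * k * g⁻¹))⁻¹ = π (g * lo (-t⁻¹) * g⁻¹) := by
    rw [hxe, ← map_mul, ← map_inv, ← map_mul, ← hk]
    congr 1
    group
  refine ⟨π (g * k * g⁻¹), ?_, ?_, ?_⟩
  · rw [hye, hxe, ← map_mul, ← map_mul, ← map_mul, ← map_mul]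
    congr 1
    calc g * up t * g⁻¹ * (g * lo (-t⁻¹) * g⁻¹) * (g * up t * g⁻¹) = g * (up t * lo (-t⁻¹) * up t) * g⁻¹ := by group
      _ = g * (lo (-t⁻¹) * up t * lo (-t⁻¹)) * g⁻¹ := by rw [hr1, hr2]
      _ = _ := by group
  · rw [hye, hxe]
    have e1 : π (g * up t * g⁻¹) * π (g * lo (-t⁻¹) * g⁻¹) * π (g * up t * g⁻¹) = π (g * k * g⁻¹) := by
      rw [← map_mul, ← map_mul, ← hr1]
      congr 1
      group
    rw [e1, ← map_mul]
    have e2 : g * k * g⁻¹ * (g * k * g⁻¹) = -1 := by
      calc g * k * g⁻¹ * (g * k * g⁻¹) = g * (k * k) * g⁻¹ := by group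
        _ = -1 := by rw [hkk]; simp
    rw [e2, hπ1]
  · rw [hye, hxe, ← map_inv, ← map_mul, Ne, hqone]
    intro hab2
    have h5 : g * up t * g⁻¹ * (g * lo (-t⁻¹) * g⁻¹)⁻¹ = g * (up t * (lo (-t⁻¹))⁻¹) * g⁻¹ := by group
    rw [h5, map_mul, map_mul, map_inv] at hab2
    apply hne
    have := congrArg (fun z => (q F g)⁻¹ * z * q F g) hab2
    simp only [mul_one, inv_mul_cancel] at this
    rw [← this]; group

theorem l2_case {G : Type*} [Group G] [Finite G] {p : ℕ} [hp : Fact p.Prime] (hp2 : p ≠ 2) {V H : Subgroup G}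
    (hV : IsElementaryAbelian p V) (hHV : H ≤ normalizer (V : Set G)) {F : Type*} [Field F] [Finite F] [CharP F p]
    (φ : H →* Matrix.ProjectiveSpecialLinearGroup (Fin 2) F) (hφ : Function.Surjective φ)
    (hker : ∀ h : H, φ h = 1 ↔ (h : G) ∈ centralizer (V : Set G)) {a : H} (hq : Quad (a : G) V) :
    (a : G) ∈ centralizer (V : Set G) := by
  classical
  have hVc : IsMulCommutative V := hV.1
  by_contra hcon
  have hVp : IsPGroup p V := fun v => ⟨1, by rw [pow_one]; exact Subtype.ext (hV.2 v.1 v.2)⟩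
  obtain ⟨j, hj⟩ := exists_pow hVp (hHV a.2) hq
  have hj' : φ a ^ p ^ j = 1 := by
    rw [← map_pow, hker]
    exact hj
  obtain ⟨l', hrel1, hrel2, hne⟩ := rel_psl hp2 (fun h => hcon ((hker a).1 h)) hj'
  obtain ⟨l, rfl⟩ := hφ l'
  set b : H := l * a * l⁻¹ with hb
  have hφb : φ l * φ a * (φ l)⁻¹ = φ b := by rw [hb, map_mul, map_mul, map_inv]
  rw [hφb] at hrel1 hrel2 hne
  have hqb : Quad (b : G) V := by
    have : (b : G) = (l : G) * (a : G) * (l : G)⁻¹ := rfl
    rw [this]
    exact hq.conj (hHV l.2)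
  let na : normalizer (V : Set G) := ⟨a, hHV a.2⟩
  let nb : normalizer (V : Set G) := ⟨b, hHV b.2⟩
  have key : ∀ x y : H, φ x = φ y → rho V ⟨x, hHV x.2⟩ = rho V ⟨y, hHV y.2⟩ := by
    intro x y hxy
    have h1 : φ (x * y⁻¹) = 1 := by rw [map_mul, map_inv, hxy, mul_inv_cancel]
    have h2 := (rho_eq_iff V ⟨(x : G) * (y : G)⁻¹, hHV (x * y⁻¹).2⟩).2 ((hker _).1 h1)
    have h3 : (⟨x, hHV x.2⟩ : normalizer (V : Set G)) = (⟨(x : G) * (y : G)⁻¹, hHV (x * y⁻¹).2⟩ * ⟨y, hHV y.2⟩) := by
      apply Subtype.ext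
      show (x : G) = (x : G) * (y : G)⁻¹ * y
      group
    rw [h3, map_mul, h2, one_mul]
  have hrho1 : rho V na * rho V nb * rho V na = rho V nb * rho V na * rho V nb := by
    have := key (a * b * a) (b * a * b) (by simpa only [map_mul] using hrel1)
    rw [← map_mul, ← map_mul, ← map_mul, ← map_mul]
    exact this
  have hrho2 : rho V na * rho V nb * rho V na * (rho V na * rho V nb * rho V na) = 1 := by
    have := key (a * b * a * (a * b * a)) 1 (by rw [map_one]; simpa only [map_mul] using hrel2)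
    have h1 : rho V ⟨((1 : H) : G), hHV (1 : H).2⟩ = 1 := map_one (rho V)
    rw [← map_mul, ← map_mul, ← map_mul, ← h1]
    exact this
  have h2R : ∀ x : AddMonoid.End (Additive V), x + x = 0 → x = 0 := by
    intro x hx
    apply AddMonoidHom.ext
    intro w
    have h1 : x w + x w = 0 := congrArg (fun f : AddMonoid.End (Additive V) => f w) hx
    have h2 : p • x w = 0 := by
      apply Additive.toMul.injective
      apply Subtype.ext
      show (((x w).toMul : V) ^ p : V).1 = 1
      exact hV.2 _ (x w).toMul.2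
    obtain ⟨m, hm⟩ := hp.out.odd_of_ne_two hp2
    have h3 : p • x w = m • (x w + x w) + x w := by
      rw [← two_nsmul, ← mul_nsmul', ← succ_nsmul]
      congr 1
      omega
    rw [h3, h1, smul_zero, zero_add] at h2
    exact h2
  have hcore := ring_core h2R (A := rho V na - 1) (B := rho V nb - 1) (rho_quad V na hq) (rho_quad V nb hqb)
    (by simpa using hrho1) (by simpa using hrho2)
  have hab : rho V na = rho V nb := by
    have := congrArg (fun z => z + 1) hcore
    simpa using this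
  apply hne
  rw [← map_inv, ← map_mul, hker]
  exact (rho_eq_iff V (na * nb⁻¹)).1 (by
      rw [map_mul, hab, ← map_mul, mul_inv_cancel, map_one])

end H51.QuadL2
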