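import Cfsg.Agent.Lib.H51.QuadL2
import Cfsg.Agent.Lib.H65.PBasic
import Mathlib.GroupTheory.SemidirectProduct

/-! A quadratic element on an irreducible module forces a section `SL₂(p)` in the faithful quotient, `p` odd. -/

set_option autoImplicit false

namespace H51.QuadSL2

open Cfsg Subgroup H51.Involves H51.Qd H51.QdStab H51.QdStab2 H51.QdStab3

universe u

/-- the conjugation action -/
def psi {G : Type u} [Group G] {V H : Subgroup G} (hHV : H ≤ normalizer (V : Set G)) : H →* MulAut V where
  toFun h :=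
    { toFun := fun v => ⟨(h : G) * v * (h : G)⁻¹, (mem_normalizer_iff.1 (hHV h.2) v).1 v.2⟩
      invFun := fun v => ⟨(h : G)⁻¹ * v * (h : G), by
        have := (mem_normalizer_iff.1 (inv_mem (hHV h.2)) v).1 v.2
        rwa [inv_inv] at this⟩
      left_inv := by
        intro v; apply Subtype.ext
        show (h : G)⁻¹ * ((h : G) * v * (h : G)⁻¹) * (h : G) = v
        generalize (h : G) = x
        group
      right_inv := by
        intro v; apply Subtype.ext
        show (h : G) * ((h : G)⁻¹ * v * (h : G)) * (h : G)⁻¹ = v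
        generalize (h : G) = x
        group
      map_mul' := by
        intro v w; apply Subtype.ext
        show (h : G) * (v * w : G) * (h : G)⁻¹ = ((h : G) * v * (h : G)⁻¹) * ((h : G) * w * (h : G)⁻¹)
        generalize (h : G) = x
        group }
  map_one' := by
    ext v
    show (1 : G) * v * (1 : G)⁻¹ = v
    group
  map_mul' := by
    intro h k
    ext v
    show ((h : G) * (k : G)) * v * ((h : G) * (k : G))⁻¹ = (h : G) * ((k : G) * v * (k : G)⁻¹) * (h : G)⁻¹
    generalize (h : G) = x
    generalize (k : G) = y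
    group

theorem psi_apply {G : Type u} [Group G] {V H : Subgroup G} (hHV : H ≤ normalizer (V : Set G)) (h : H) (v : V) :
    ((psi hHV h v : V) : G) = h * v * (h : G)⁻¹ := rfl

theorem psi_eq_one {G : Type u} [Group G] {V H : Subgroup G} (hHV : H ≤ normalizer (V : Set G)) (h : H) :
    psi hHV h = 1 ↔ (h : G) ∈ centralizer (V : Set G) := by
  constructor
  · intro h1
    rw [mem_centralizer_iff]
    intro v hv
    have h2 := congrArg (fun f : MulAut V => ((f ⟨v, hv⟩ : V) : G)) h1
    have h3 : (h : G) * v * (h : G)⁻¹ = v := h2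
    exact (mul_inv_eq_iff_eq_mul.1 h3).symm
  · intro h1
    ext v
    rw [psi_apply]
    have h2 := (mem_centralizer_iff.1 h1) _ v.2
    show (h : G) * v * (h : G)⁻¹ = v
    rw [mul_inv_eq_iff_eq_mul]
    exact h2.symm

theorem main {p : ℕ} [hp : Fact p.Prime] (hp2 : p ≠ 2) {G : Type u} [Group G] [Finite G] {V H : Subgroup G}
    (hV : IsPGroup p V) (hHV : H ≤ normalizer (V : Set G))
    (hirr : ∀ U : Subgroup G, U ≤ V → H ≤ normalizer (U : Set G) → U = ⊥ ∨ U = V)
    {Q : Type*} [Group Q] (φ : H →* Q) (hker : ∀ h : H, φ h = 1 ↔ (h : G) ∈ centralizer (V : Set G))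
    {a : H} (hq : Quad (a : G) V) (ha : (a : G) ∉ centralizer (V : Set G)) :
    Involves (Matrix.SpecialLinearGroup (Fin 2) (ZMod p)) Q := by
  classical
  set X : Subgroup (MulAut V) := (psi hHV).range with hX
  let G' := V ⋊[X.subtype] X
  have hfin : Finite G' := Finite.of_equiv _ (SemidirectProduct.equivProd (φ := X.subtype)).symm
  let P : Subgroup G' := (SemidirectProduct.inl : V →* G').range
  have hP : IsPGroup p P := by
    have h1 : IsPGroup p ((⊤ : Subgroup V).map (SemidirectProduct.inl : V →* G')) := (hV.to_subgroup ⊤).map _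
    rwa [← MonoidHom.range_eq_map] at h1
  have hconj : ∀ (k : X) (v : V), (SemidirectProduct.inr k : G') * SemidirectProduct.inl v * (SemidirectProduct.inr k)⁻¹ =
      SemidirectProduct.inl ((k : MulAut V) v) := by
    intro k v
    rw [← map_inv]
    exact (SemidirectProduct.inl_aut (φ := X.subtype) k v).symm
  have hnorm : ∀ k : X, (SemidirectProduct.inr k : G') ∈ normalizer (P : Set G') := by
    intro k
    apply H51.QdStab.mem_normalizer_of_conj_mem
    rintro _ ⟨v, rfl⟩
    rw [hconj]
    exact ⟨_, rfl⟩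
  have hcent : ∀ k : X, (SemidirectProduct.inr k : G') ∈ centralizer (P : Set G') → k = 1 := by
    intro k hk
    apply Subtype.ext
    apply MulEquiv.ext
    intro v
    have h1 := (mem_centralizer_iff.1 hk) (SemidirectProduct.inl v) ⟨v, rfl⟩
    have h2 := hconj k v
    rw [← h1, mul_inv_cancel_right] at h2
    exact (SemidirectProduct.inl_injective h2).symm
  have hquad : ∀ b : H, Quad (b : G) V → Quad (SemidirectProduct.inr (⟨psi hHV b, b, rfl⟩ : X) : G') P := by
    rintro b hb _ ⟨v, rfl⟩
    rw [hconj, ← map_inv, ← map_mul, hconj]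
    congr 1
    apply Subtype.ext
    exact hb v v.2
  set xa : X := ⟨psi hHV a, a, rfl⟩ with hxa
  -- Baer-Suzuki
  obtain ⟨k, hk⟩ : ∃ k : X, ¬ IsPGroup p (Subgroup.closure ({xa, k * xa * k⁻¹} : Set X)) := by
    by_contra hcon
    push Not at hcon
    obtain ⟨N, hNn, hNp, haN⟩ := H55.BaerSuzuki.exists_normal (p := p) xa hcon
    -- fixed points
    let N' : Subgroup G' := N.map SemidirectProduct.inr
    have hN' : IsPGroup p N' := hNp.map _
    have hN'P : N' ≤ normalizer (P : Set G') := by
      rintro _ ⟨n, hn, rfl⟩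
      exact hnorm n
    have hV1 : V ≠ ⊥ := by
      rintro rfl
      apply ha
      rw [mem_centralizer_iff]
      intro v hv
      have : v = 1 := hv
      rw [this]; simp
    have hP1 : P ≠ ⊥ := by
      intro h
      apply hV1
      rw [eq_bot_iff]
      intro v hv
      have h1 : (SemidirectProduct.inl (⟨v, hv⟩ : V) : G') ∈ P := ⟨_, rfl⟩
      rw [h, Subgroup.mem_bot] at h1
      have h2 := SemidirectProduct.inl_injective (h1.trans (map_one _).symm)
      rw [Subgroup.mem_bot]
      exact congrArg Subtype.val h2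
    have hfix := H65.PBasic.inf_centralizer_ne_bot N' P hN' hP hN'P hP1
    let U : Subgroup G := {
      carrier := {u | ∃ hu : u ∈ V, ∀ n ∈ N, (n : MulAut V) ⟨u, hu⟩ = ⟨u, hu⟩}
      one_mem' := ⟨V.one_mem, fun n _ => map_one (n : MulAut V)⟩
      mul_mem' := by
        rintro u w ⟨hu, hu2⟩ ⟨hw, hw2⟩
        refine ⟨V.mul_mem hu hw, fun n hn => ?_⟩
        have h1 : (⟨u * w, V.mul_mem hu hw⟩ : V) = ⟨u, hu⟩ * ⟨w, hw⟩ := rfl
        rw [h1, map_mul, hu2 n hn, hw2 n hn]
      inv_mem' := by
        rintro u ⟨hu, hu2⟩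
        refine ⟨V.inv_mem hu, fun n hn => ?_⟩
        have h1 : (⟨u⁻¹, V.inv_mem hu⟩ : V) = (⟨u, hu⟩ : V)⁻¹ := rfl
        rw [h1, map_inv, hu2 n hn] }
    have hUV : U ≤ V := fun u hu => hu.1
    have hUH : H ≤ normalizer (U : Set G) := by
      intro h hh
      apply H51.QdStab.mem_normalizer_of_conj_mem
      rintro u ⟨hu, hu2⟩
      refine ⟨(mem_normalizer_iff.1 (hHV hh) u).1 hu, fun n hn => ?_⟩
      set ph : X := ⟨psi hHV ⟨h, hh⟩, ⟨h, hh⟩, rfl⟩ with hph
      have h1 : (⟨h * u * h⁻¹, (mem_normalizer_iff.1 (hHV hh) u).1 hu⟩ : V) = (ph : MulAut V) ⟨u, hu⟩ := rfl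
      have h2 := hu2 (ph⁻¹ * n * ph) (by
        have := hNn.conj_mem n hn ph⁻¹
        rwa [inv_inv] at this)
      rw [h1]
      have h3 : ((ph⁻¹ * n * ph : X) : MulAut V) ⟨u, hu⟩ = (ph : MulAut V)⁻¹ ((n : MulAut V) ((ph : MulAut V) ⟨u, hu⟩)) := rfl
      rw [h3] at h2
      have h4 := congrArg (fun z => (ph : MulAut V) z) h2
      simp only [MulAut.apply_inv_self] at h4
      exact h4
    rcases hirr U hUV hUH with h1 | h1
    · apply hfix
      rw [eq_bot_iff]
      intro z hz
      obtain ⟨hz1, hz2⟩ := Subgroup.mem_inf.1 hz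
      obtain ⟨v, rfl⟩ := hz1
      have h2 : (v : G) ∈ U := by
        refine ⟨v.2, fun n hn => ?_⟩
        have h3 := (mem_centralizer_iff.1 hz2) (SemidirectProduct.inr n) (Subgroup.mem_map_of_mem _ hn)
        have h4 := hconj n v
        rw [h3, mul_inv_cancel_right] at h4
        exact (SemidirectProduct.inl_injective h4).symm
      rw [h1, Subgroup.mem_bot] at h2
      have h3 : v = 1 := Subtype.ext h2
      rw [h3, map_one]
      exact Subgroup.one_mem _
    · apply ha
      rw [← psi_eq_one hHV]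
      ext v
      have h2 : (v : G) ∈ U := by rw [h1]; exact v.2
      obtain ⟨hu, hu2⟩ := h2
      exact congrArg Subtype.val (hu2 xa haN)
  obtain ⟨k', ⟨h, rfl⟩⟩ := k
  set b : H := h * a * h⁻¹ with hb
  have hqb : Quad (b : G) V := by
    have : (b : G) = (h : G) * (a : G) * (h : G)⁻¹ := rfl
    rw [this]
    exact hq.conj (hHV h.2)
  set xb : X := ⟨psi hHV b, b, rfl⟩ with hxb
  have hxb' : (⟨psi hHV h, h, rfl⟩ : X) * xa * (⟨psi hHV h, h, rfl⟩ : X)⁻¹ = xb := by
    apply Subtype.ext
    show psi hHV h * psi hHV a * (psi hHV h)⁻¹ = psi hHV b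
    rw [hb, map_mul, map_mul, map_inv]
  have hk' : ¬ IsPGroup p (Subgroup.closure ({xa, xb} : Set X)) := by
    rw [← hxb']; exact hk
  have hqd := qd_of_quadratic hp2 _ P (SemidirectProduct.inr xa) (SemidirectProduct.inr xb) rfl hP (hnorm _) (hnorm _)
    (hquad a hq) (hquad b hqb) (by
      intro hall
      apply hk'
      rintro ⟨z, hz⟩
      have h1 : (SemidirectProduct.inr z : G') ∈ Subgroup.closure {(SemidirectProduct.inr xa : G'), SemidirectProduct.inr xb} := by
        have h2 : (SemidirectProduct.inr z : G') ∈ (Subgroup.closure ({xa, xb} : Set X)).map SemidirectProduct.inr :=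
          Subgroup.mem_map_of_mem _ hz
        rw [MonoidHom.map_closure, Set.image_pair] at h2
        exact h2
      obtain ⟨j, hj⟩ := hall _ h1
      refine ⟨j, ?_⟩
      rw [← map_pow] at hj
      exact Subtype.ext (hcent _ hj))
  have hsl := involves_sl2_of_qd hqd
  have hkerp : IsPGroup p (SemidirectProduct.rightHom (N := V) (G := X) (φ := X.subtype)).ker := by
    rw [← SemidirectProduct.range_inl_eq_ker_rightHom]
    exact hP
  have hslX := involves_quotient (p := p) (SemidirectProduct.rightHom (N := V) (G := X) (φ := X.subtype)) hkerp hsl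
  -- `X` embeds in `Q`
  have hsurj : Function.Surjective (psi hHV).rangeRestrict := MonoidHom.rangeRestrict_surjective _
  have hkk : ∀ h : H, (psi hHV).rangeRestrict h = 1 ↔ φ h = 1 := by
    intro h
    rw [hker, ← psi_eq_one hHV]
    constructor
    · intro h1; exact congrArg Subtype.val h1
    · intro h1; exact Subtype.ext h1
  let θ : X →* Q := (psi hHV).rangeRestrict.liftOfSurjective hsurj ⟨φ, fun h hh => by
    rw [MonoidHom.mem_ker] at hh ⊢
    exact (hkk h).1 hh⟩
  have hθ : ∀ h : H, θ ((psi hHV).rangeRestrict h) = φ h := by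
    intro h
    exact MonoidHom.liftOfRightInverse_comp_apply _ _ _ _ h
  refine involves_of_injective θ ?_ hslX
  rw [injective_iff_map_eq_one]
  intro x hx
  obtain ⟨h, rfl⟩ := hsurj x
  rw [hθ] at hx
  exact (hkk h).2 hx

end H51.QuadSL2
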