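import Cfsg.Agent.Lib.H51.WeakClos
import Cfsg.Agent.Lib.H51.QdStab2
import Cfsg.Agent.Lib.H51.S4Free
import Cfsg.Agent.Lib.H39.SFMin

/-! An abelian strongly closed subgroup controls strong fusion. -/

set_option autoImplicit false
set_option linter.unusedSectionVars false

namespace H51.StrClosed

open Cfsg Subgroup H51.AmalgamBasic H51.AmalgamBasic2 H51.SylowAmb H51.WeakClos

variable {G : Type*} [Group G] {p : ℕ} [hp : Fact p.Prime]

/-- conjugation by `g` on `B` is induced by an element of `N(A)` -/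
def Ind (A B : Subgroup G) (g : G) : Prop :=
  ∃ n ∈ normalizer (A : Set G), ∀ b ∈ B, g * b * g⁻¹ = n * b * n⁻¹

theorem Ind.mono {A B C : Subgroup G} {g : G} (h : Ind A B g) (hC : C ≤ B) : Ind A C g := by
  obtain ⟨n, hn, h⟩ := h
  exact ⟨n, hn, fun b hb => h b (hC hb)⟩

theorem Ind.trans {A B : Subgroup G} {g h : G} (h1 : Ind A B g) (h2 : Ind A (cj g B) h) : Ind A B (h * g) := by
  obtain ⟨n, hn, h1⟩ := h1
  obtain ⟨m, hm, h2⟩ := h2
  refine ⟨m * n, mul_mem hm hn, fun b hb => ?_⟩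
  have h3 := h2 (g * b * g⁻¹) ⟨b, hb, rfl⟩
  calc h * g * b * (h * g)⁻¹ = h * (g * b * g⁻¹) * h⁻¹ := by group
    _ = m * (g * b * g⁻¹) * m⁻¹ := h3
    _ = m * (n * b * n⁻¹) * m⁻¹ := by rw [h1 b hb]
    _ = m * n * b * (m * n)⁻¹ := by group

theorem Ind.inv {A B : Subgroup G} {g : G} (h1 : Ind A B g) : Ind A (cj g B) g⁻¹ := by
  obtain ⟨n, hn, h1⟩ := h1
  refine ⟨n⁻¹, inv_mem hn, ?_⟩
  rintro _ ⟨b, hb, rfl⟩
  show g⁻¹ * (g * b * g⁻¹) * g⁻¹⁻¹ = n⁻¹ * (g * b * g⁻¹) * n⁻¹⁻¹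
  have h2 := h1 b hb
  calc g⁻¹ * (g * b * g⁻¹) * g⁻¹⁻¹ = b := by group
    _ = n⁻¹ * (n * b * n⁻¹) * n⁻¹⁻¹ := by group
    _ = _ := by rw [h2]

theorem Ind.of_mem {A B : Subgroup G} {g : G} (hg : g ∈ normalizer (A : Set G)) : Ind A B g :=
  ⟨g, hg, fun _ _ => rfl⟩

variable [Finite G] {S A : Subgroup G} (hS : IsPGroup p S) (hSi : ¬ p ∣ S.index)
  (hAb : ∀ a ∈ A, ∀ b ∈ A, a * b = b * a) (hsc : IsStronglyClosed A S)

include hsc in
theorem mem_normalizer_of_le {g : G} (h : ∀ a ∈ A, g * a * g⁻¹ ∈ S) : g ∈ normalizer (A : Set G) :=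
  H51.QdStab.mem_normalizer_of_conj_mem (fun a ha => hsc.2 a ha g (h a ha))

include hsc in
theorem S_le : S ≤ normalizer (A : Set G) := by
  intro s hs
  exact mem_normalizer_of_le hsc (fun a ha => S.mul_mem (S.mul_mem hs (hsc.1 ha)) (S.inv_mem hs))

include hS hAb hsc in
/-- the normalizer step -/
theorem normalizer_step {B : Subgroup G} (hB : B ≤ S) (hAB : ¬ A ≤ B)
    (hfn : ¬ p ∣ (S ⊓ normalizer (B : Set G)).relIndex (normalizer (B : Set G)))
    (ih : ∀ B' : Subgroup G, B' ≤ S → B < B' → ∀ g, cj g B' ≤ S → Ind A B' g) {m : G}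
    (hm : m ∈ normalizer (B : Set G)) : Ind A B m := by
  have hSN := S_le hsc
  set N := normalizer (B : Set G) with hN
  have hBN : B ≤ N := le_normalizer
  have hBm : ∀ x ∈ N, ∀ b ∈ B, x * b * x⁻¹ ∈ B := fun x hx b hb => (mem_normalizer_iff.1 hx b).1 hb
  have hBm' : ∀ x ∈ N, ∀ b ∈ B, x⁻¹ * b * x ∈ B := fun x hx b hb => by
    have := hBm x⁻¹ (inv_mem hx) b hb
    rwa [inv_inv] at this
  have hABm : ∀ x ∈ N, ∀ a ∈ A ⊓ B, x * a * x⁻¹ ∈ A ⊓ B := fun x hx a ha => by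
    obtain ⟨ha1, ha2⟩ := Subgroup.mem_inf.1 ha
    have h1 := hBm x hx a ha2
    exact Subgroup.mem_inf.2 ⟨hsc.2 a ha1 x (hB h1), h1⟩
  have hABm' : ∀ x ∈ N, ∀ a ∈ A ⊓ B, x⁻¹ * a * x ∈ A ⊓ B := fun x hx a ha => by
    have := hABm x⁻¹ (inv_mem hx) a ha
    rwa [inv_inv] at this
  -- the stability group
  let Q : Subgroup G := {
    carrier := {x | x ∈ N ∧ (∀ a ∈ A ⊓ B, x * a * x⁻¹ = a) ∧ ∀ b ∈ B, x * b * x⁻¹ * b⁻¹ ∈ A ⊓ B}
    one_mem' := ⟨N.one_mem, fun a _ => by group, fun b _ => by simp⟩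
    mul_mem' := by
      rintro x y ⟨hx, hx1, hx2⟩ ⟨hy, hy1, hy2⟩
      refine ⟨N.mul_mem hx hy, fun a ha => ?_, fun b hb => ?_⟩
      · calc x * y * a * (x * y)⁻¹ = x * (y * a * y⁻¹) * x⁻¹ := by group
          _ = a := by rw [hy1 a ha, hx1 a ha]
      · have h1 : x * y * b * (x * y)⁻¹ * b⁻¹ = (x * (y * b * y⁻¹ * b⁻¹) * x⁻¹) * (x * b * x⁻¹ * b⁻¹) := by group
        rw [h1, hx1 _ (hy2 b hb)]
        exact mul_mem (hy2 b hb) (hx2 b hb)
    inv_mem' := by
      rintro x ⟨hx, hx1, hx2⟩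
      refine ⟨N.inv_mem hx, fun a ha => ?_, fun b hb => ?_⟩
      · have := hx1 _ (hABm' x hx a ha)
        have h2 : x * (x⁻¹ * a * x) * x⁻¹ = a := by group
        rw [h2] at this
        rw [inv_inv]; exact this.symm
      · have h1 := hx2 _ (hBm' x hx b hb)
        have h2 : x * (x⁻¹ * b * x) * x⁻¹ * (x⁻¹ * b * x)⁻¹ = b * (x⁻¹ * b⁻¹ * x) := by group
        rw [h2] at h1
        have h3 := inv_mem h1
        have h4 := hABm' x hx _ (hABm x hx _ h3)
        have h5 : x⁻¹ * b * x⁻¹⁻¹ * b⁻¹ = (b * (x⁻¹ * b⁻¹ * x))⁻¹ := by group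
        rw [h5]
        exact h3 }
  have hQN : Q ≤ N := fun x hx => hx.1
  have hQn : N ≤ normalizer (Q : Set G) := by
    intro x hx
    apply H51.QdStab.mem_normalizer_of_conj_mem
    rintro y ⟨hy, hy1, hy2⟩
    refine ⟨N.mul_mem (N.mul_mem hx hy) (N.inv_mem hx), fun a ha => ?_, fun b hb => ?_⟩
    · have := hy1 _ (hABm' x hx a ha)
      calc x * y * x⁻¹ * a * (x * y * x⁻¹)⁻¹ = x * (y * (x⁻¹ * a * x) * y⁻¹) * x⁻¹ := by group
        _ = a := by rw [this]; group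
    · have h1 := hy2 _ (hBm' x hx b hb)
      have h2 := hABm x hx _ h1
      have h3 : x * y * x⁻¹ * b * (x * y * x⁻¹)⁻¹ * b⁻¹ = x * (y * (x⁻¹ * b * x) * y⁻¹ * (x⁻¹ * b * x)⁻¹) * x⁻¹ := by group
      rw [h3]; exact h2
  set C := centralizer (B : Set G) with hC
  have hCQ : C ≤ Q := by
    intro x hx
    have h1 : ∀ b ∈ B, x * b * x⁻¹ = b := fun b hb => by
      rw [← mem_centralizer_iff.1 hx b hb, mul_inv_cancel_right]
    refine ⟨H51.QdStab.mem_normalizer_of_conj_mem fun b hb => by rw [h1 b hb]; exact hb,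
      fun a ha => h1 a (Subgroup.mem_inf.1 ha).2, fun b hb => ?_⟩
    rw [h1 b hb, mul_inv_cancel]; exact one_mem _
  set P₁ := S ⊓ N with hP₁
  set R := Q ⊓ P₁ with hR
  have hRp : IsPGroup p R := hS.to_le (inf_le_right.trans inf_le_left)
  -- R is Sylow in Q
  have hRi : ¬ p ∣ R.relIndex Q := by
    have h1 : R.relIndex Q = P₁.relIndex Q := by rw [hR, Subgroup.inf_relIndex_left]
    have hQn' : (Q.subgroupOf N).Normal := normal_subgroupOf_of_le_normalizer hQn
    have h2 := H51.S4Free.sylow_inf_normal (p := p) (S := P₁.subgroupOf N) (R := Q.subgroupOf N) hfn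
    rw [Subgroup.inf_relIndex_right, Subgroup.relIndex_subgroupOf hQN] at h2
    rw [h1]; exact h2
  -- Q = C ⊔ R
  have hpow : ∀ x ∈ Q, ∃ j, x ^ p ^ j ∈ C := by
    rintro x ⟨hx, hx1, hx2⟩
    exact H51.QdStab2.pow_centralizes (p := p) (P := B) (A := A ⊓ B) (hS.to_le (inf_le_right.trans hB)) hx2 hx1
  have hCn : N ≤ normalizer (C : Set G) := by
    intro x hx
    exact H51.S4Section2.mem_normalizer_centralizer hx
  have hQCR : Q ≤ C ⊔ R := by
    rw [← Subgroup.relIndex_eq_one]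
    have h1 : (C ⊔ R).relIndex Q ∣ C.relIndex Q := Subgroup.relIndex_dvd_of_le_left Q le_sup_left
    have h2 : (C ⊔ R).relIndex Q ∣ R.relIndex Q := Subgroup.relIndex_dvd_of_le_left Q le_sup_right
    have h3 : ∃ k, C.relIndex Q = p ^ k := by
      have hn : (C.subgroupOf Q).Normal := normal_subgroupOf_of_le_normalizer (hQN.trans hCn)
      have h4 : IsPGroup p (Q ⧸ C.subgroupOf Q) := by
        intro x
        obtain ⟨x, rfl⟩ := QuotientGroup.mk_surjective x
        obtain ⟨j, hj⟩ := hpow x x.2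
        refine ⟨j, ?_⟩
        rw [← QuotientGroup.mk_pow, QuotientGroup.eq_one_iff]
        exact hj
      obtain ⟨k, hk⟩ := IsPGroup.iff_card.1 h4
      exact ⟨k, hk⟩
    obtain ⟨k, hk⟩ := h3
    rw [hk] at h1
    obtain ⟨j, _, hj⟩ := (Nat.dvd_prime_pow hp.out).1 h1
    have hj0 : j = 0 := by
      by_contra h
      apply hRi
      refine dvd_trans ?_ h2
      rw [hj]; exact dvd_pow_self p h
    rw [hj, hj0, pow_zero]
  -- Frattini
  obtain ⟨q, hq, hqm⟩ := frattini (K := Q) (P := R) inf_le_left hRp hRi (hQn hm)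
  have hqi : q⁻¹ ∈ C ⊔ R := hQCR (inv_mem hq)
  have hCnR : R ≤ normalizer (C : Set G) := inf_le_left.trans (hQN.trans hCn)
  obtain ⟨r, hr, c, hc, hrc⟩ := H39.SFMin.mem_sup_of_norm hCnR (by rw [sup_comm]; exact hqi)
  -- y' = c' * stuff
  set y := r * (q * m) with hy
  -- m = q⁻¹ (q m) = r c (q m) = (r c r⁻¹) (r (q m))
  have hmy : m = (r * c * r⁻¹) * y := by
    rw [hy]
    calc m = q⁻¹ * (q * m) := by group
      _ = (r * c) * (q * m) := by rw [hrc]
      _ = _ := by group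
  have hrN : r ∈ N := hQN (Subgroup.mem_inf.1 hr).1
  have hc' : r * c * r⁻¹ ∈ C := (mem_normalizer_iff.1 (hCn hrN) c).1 hc
  have hqmN : q * m ∈ N := N.mul_mem (hQN hq) hm
  have hyN : y ∈ N := N.mul_mem hrN hqmN
  have hyR : y ∈ normalizer (R : Set G) := mul_mem (le_normalizer hr) hqm
  set B' := R ⊔ B with hB'
  have hB'S : B' ≤ S := sup_le (inf_le_right.trans inf_le_left) hB
  have hyB' : cj y B' = B' := by
    rw [hB']
    show (R ⊔ B).map _ = _
    rw [Subgroup.map_sup]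
    have e1 : R.map (MulAut.conj y).toMonoidHom = R := cj_eq_of_mem_normalizer hyR
    have e2 : B.map (MulAut.conj y).toMonoidHom = B := cj_eq_of_mem_normalizer hyN
    rw [e1, e2]
  have hBB' : B < B' := by
    refine lt_of_le_of_ne le_sup_right ?_
    intro hne
    -- `N_A(B) ≤ R ≤ B`, contradiction
    have hlt : B < A ⊔ B := by
      refine lt_of_le_of_ne le_sup_right (fun h => hAB ?_)
      rw [h]; exact le_sup_left
    obtain ⟨x, hx, hxB, hxN⟩ := H5.PLocal.exists_mem_normalizer_not_mem (hS.to_le (sup_le hsc.1 hB)) hlt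
    have hBA : B ≤ normalizer (A : Set G) := hB.trans hSN
    obtain ⟨b, hb, a, ha, rfl⟩ := H39.SFMin.mem_sup_of_norm hBA (by rw [sup_comm]; exact hx)
    have haN : a ∈ N := by
      have := N.mul_mem (N.inv_mem (hBN hb)) hxN
      rwa [inv_mul_cancel_left] at this
    have haQ : a ∈ Q := by
      refine ⟨haN, fun a' ha' => ?_, fun b' hb' => ?_⟩
      · rw [hAb a ha a' (Subgroup.mem_inf.1 ha').1, mul_inv_cancel_right]
      · refine Subgroup.mem_inf.2 ⟨?_, B.mul_mem (hBm a haN b' hb') (B.inv_mem hb')⟩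
        have h1 : b' * a⁻¹ * b'⁻¹ ∈ A := (mem_normalizer_iff.1 (hBA hb') a⁻¹).1 (inv_mem ha)
        have h2 : a * b' * a⁻¹ * b'⁻¹ = a * (b' * a⁻¹ * b'⁻¹) := by group
        rw [h2]; exact A.mul_mem ha h1
    have haR : a ∈ R := Subgroup.mem_inf.2 ⟨haQ, Subgroup.mem_inf.2 ⟨hsc.1 ha, haN⟩⟩
    apply hxB
    have haB : a ∈ B := by rw [hne]; exact (le_sup_left : R ≤ R ⊔ B) haR
    exact B.mul_mem hb haB
  have h1 := (ih B' hB'S hBB' y (by rw [hyB']; exact hB'S)).mono (le_sup_right : B ≤ R ⊔ B)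
  obtain ⟨n, hn, h1⟩ := h1
  refine ⟨n, hn, fun b hb => ?_⟩
  rw [← h1 b hb, hmy]
  have h2 := hBm y hyN b hb
  have h3 := mem_centralizer_iff.1 hc' _ h2
  calc r * c * r⁻¹ * y * b * (r * c * r⁻¹ * y)⁻¹ = (r * c * r⁻¹) * (y * b * y⁻¹) * (r * c * r⁻¹)⁻¹ := by group
    _ = y * b * y⁻¹ := by rw [← h3, mul_inv_cancel_right]

include hS hSi hAb hsc in
theorem main : ∀ (k : ℕ) (B : Subgroup G), B ≤ S → Nat.card S ≤ Nat.card B + k → ∀ g, cj g B ≤ S → Ind A B g := by
  intro k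
  induction k with
  | zero =>
    intro B hB hcard g hg
    have hBS : B = S := Subgroup.eq_of_le_of_card_ge hB hcard
    subst hBS
    exact Ind.of_mem (mem_normalizer_of_le hsc (fun a ha => hg ⟨a, hsc.1 ha, rfl⟩))
  | succ k ih' =>
    intro B hB hcard g hg
    have ih : ∀ B' : Subgroup G, B' ≤ S → Nat.card B < Nat.card B' → ∀ g, cj g B' ≤ S → Ind A B' g :=
      fun B' hB' hlt g hg => ih' B' hB' (by omega) g hg
    by_cases hAB : A ≤ B
    · exact Ind.of_mem (mem_normalizer_of_le hsc (fun a ha => hg ⟨a, hAB ha, rfl⟩))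
    have hBS : B ≠ S := fun h => hAB (by rw [h]; exact hsc.1)
    set B₂ := cj g B with hB₂
    have hB₂c : Nat.card B₂ = Nat.card B := card_cj g B
    have hB₂S : B₂ ≠ S := by
      intro h
      apply hBS
      exact Subgroup.eq_of_le_of_card_ge hB (by rw [← hB₂c, h])
    -- a fully normalized conjugate of B
    obtain ⟨P, hP1, hP2, hPp, hPi⟩ := exists_sylow_ge (p := p) (K := normalizer (B : Set G)) (Q := S ⊓ normalizer (B : Set G))
      inf_le_right (hS.to_le inf_le_left)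
    obtain ⟨h₀, hh₀⟩ := exists_le_cj hS hSi hPp
    set h := h₀⁻¹ with hh
    have hPS : cj h P ≤ S := by rw [cj_le_iff, hh, inv_inv]; exact hh₀
    have hBP : B ≤ P := (le_inf hB le_normalizer).trans hP1
    have hBhS : cj h B ≤ S := (cj_mono hBP).trans hPS
    have hnorm : ∀ k : G, cj k (normalizer (B : Set G)) = normalizer ((cj k B : Subgroup G) : Set G) := by
      intro k
      ext x
      rw [mem_cj]
      constructor
      · intro hx
        apply H51.QdStab.mem_normalizer_of_conj_mem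
        rintro _ ⟨b, hb, rfl⟩
        refine ⟨(k⁻¹ * x * k) * b * (k⁻¹ * x * k)⁻¹, (mem_normalizer_iff.1 hx b).1 hb, ?_⟩
        show k * ((k⁻¹ * x * k) * b * (k⁻¹ * x * k)⁻¹) * k⁻¹ = x * (k * b * k⁻¹) * x⁻¹
        group
      · intro hx
        apply H51.QdStab.mem_normalizer_of_conj_mem
        intro b hb
        have h1 := (mem_normalizer_iff.1 hx (k * b * k⁻¹)).1 ⟨b, hb, rfl⟩
        rw [mem_cj] at h1
        have h2 : k⁻¹ * x * k * b * (k⁻¹ * x * k)⁻¹ = k⁻¹ * (x * (k * b * k⁻¹) * x⁻¹) * k := by group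
        rw [h2]; exact h1
    have hfn : ¬ p ∣ (S ⊓ normalizer ((cj h B : Subgroup G) : Set G)).relIndex (normalizer ((cj h B : Subgroup G) : Set G)) := by
      intro h1
      apply hPi
      have h2 : (cj h P).relIndex (cj h (normalizer (B : Set G))) = P.relIndex (normalizer (B : Set G)) := relIndex_map_conj _ _ _
      rw [← h2, hnorm]
      refine h1.trans (Subgroup.relIndex_dvd_of_le_left _ (le_inf hPS ?_))
      rw [← hnorm]; exact cj_mono hP2
    have hind1 : Ind A B h := by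
      have h1 := ih (S ⊓ normalizer (B : Set G)) inf_le_left (exists_card_lt hS hB hBS) h ((cj_mono hP1).trans hPS)
      exact h1.mono (le_inf hB le_normalizer)
    -- move N_S(B₂)
    have hkB₂ : cj (h * g⁻¹) B₂ = cj h B := by rw [hB₂, ← cj_mul, inv_mul_cancel_right]
    have hQ' : cj (h * g⁻¹) (S ⊓ normalizer (B₂ : Set G)) ≤ normalizer ((cj h B : Subgroup G) : Set G) := by
      rw [← hkB₂]
      rintro _ ⟨x, hx, rfl⟩
      have hx2 := (Subgroup.mem_inf.1 hx).2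
      apply H51.QdStab.mem_normalizer_of_conj_mem
      rintro _ ⟨b, hb, rfl⟩
      refine ⟨x * b * x⁻¹, (mem_normalizer_iff.1 hx2 b).1 hb, ?_⟩
      show (h * g⁻¹) * (x * b * x⁻¹) * (h * g⁻¹)⁻¹ = ((h * g⁻¹) * x * (h * g⁻¹)⁻¹) * ((h * g⁻¹) * b * (h * g⁻¹)⁻¹) * ((h * g⁻¹) * x * (h * g⁻¹)⁻¹)⁻¹
      group
    obtain ⟨m, hm, hmQ⟩ := exists_conj_le (p := p) (K := normalizer ((cj h B : Subgroup G) : Set G))
      (P := S ⊓ normalizer ((cj h B : Subgroup G) : Set G)) inf_le_right (hS.to_le inf_le_left) hfn hQ'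
      ((hS.to_le inf_le_left : IsPGroup p (S ⊓ normalizer (B₂ : Set G) : Subgroup G)).map _)
    have hind2 : Ind A B₂ (m * (h * g⁻¹)) := by
      have h1 := ih (S ⊓ normalizer (B₂ : Set G)) inf_le_left (by rw [← hB₂c]; exact exists_card_lt hS hg hB₂S)
        (m * (h * g⁻¹)) (by rw [cj_mul]; exact hmQ.trans inf_le_left)
      exact h1.mono (le_inf hg le_normalizer)
    have hmB : cj m (cj h B) = cj h B := cj_eq_of_mem_normalizer hm
    have hind3 : Ind A (cj h B) m := by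
      by_cases hA' : A ≤ cj h B
      · exact Ind.of_mem (mem_normalizer_of_le hsc (fun a ha => hBhS (by rw [← hmB]; exact ⟨a, hA' ha, rfl⟩)))
      · refine normalizer_step hS hAb hsc hBhS hA' hfn ?_ hm
        intro B' hB' hlt
        refine ih B' hB' ?_
        have h1 : Nat.card (cj h B) < Nat.card B' := by
          refine lt_of_le_of_ne (Nat.card_le_card_of_injective _ (Subgroup.inclusion_injective hlt.le)) ?_
          intro h2
          exact hlt.ne (Subgroup.eq_of_le_of_card_ge hlt.le h2.ge)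
        rwa [card_cj] at h1
    have hind4 := hind1.trans hind3
    have hcj : cj (m * (h * g⁻¹)) B₂ = cj (m * h) B := by rw [cj_mul, hkB₂, cj_mul]
    have hind5 := hind2.inv
    rw [hcj] at hind5
    have hind6 := hind4.trans hind5
    have : (m * (h * g⁻¹))⁻¹ * (m * h) = g := by group
    rwa [this] at hind6

end H51.StrClosed
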