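import Mathlib
import Cfsg.Agent.Lib.H97.AschFrame
import Cfsg.Agent.Lib.H97.AschNCU

/-!
Subfield subgroups of unitary groups: orthogonal bases of rational structures.
-/

set_option autoImplicit false
set_option linter.unusedSectionVars false

namespace H51.U3Sub

open Cfsg Cfsg.Geo Matrix H97.AschForm H97.AschNCU H96.AschAdj H97.AschFrame

variable {F : Type*} [Field F] [Fintype F] {n q : ℕ} {σ : F ≃+* F}

/-- the lattice of rational vectors -/
def Rat (F₀ : Subfield F) (P : GL (Fin n) F) (x : Fin n → F) : Prop :=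
  ∃ z : Fin n → F, (∀ i, z i ∈ F₀) ∧ (P : Matrix (Fin n) (Fin n) F) *ᵥ z = x

variable {F₀ : Subfield F} {P : GL (Fin n) F}

lemma Rat.add {x y : Fin n → F} (hx : Rat F₀ P x) (hy : Rat F₀ P y) : Rat F₀ P (x + y) := by
  obtain ⟨z, hz, rfl⟩ := hx
  obtain ⟨t, ht, rfl⟩ := hy
  exact ⟨z + t, fun i => F₀.add_mem (hz i) (ht i), Matrix.mulVec_add _ _ _⟩

lemma Rat.sub {x y : Fin n → F} (hx : Rat F₀ P x) (hy : Rat F₀ P y) : Rat F₀ P (x - y) := by
  obtain ⟨z, hz, rfl⟩ := hx
  obtain ⟨t, ht, rfl⟩ := hy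
  exact ⟨z - t, fun i => F₀.sub_mem (hz i) (ht i), Matrix.mulVec_sub _ _ _⟩

lemma Rat.smul {c : F} (hc : c ∈ F₀) {x : Fin n → F} (hx : Rat F₀ P x) : Rat F₀ P (c • x) := by
  obtain ⟨z, hz, rfl⟩ := hx
  exact ⟨c • z, fun i => F₀.mul_mem hc (hz i), Matrix.mulVec_smul _ _ _⟩

lemma sub_act {g : GL (Fin n) F} (hg : g ∈ subfieldSubgroup F₀ P) : ∃ c : F, c ≠ 0 ∧
    ∀ x, Rat F₀ P x → ∃ y, Rat F₀ P y ∧ (g : Matrix (Fin n) (Fin n) F) *ᵥ x = c • y := by
  obtain ⟨y, hy, hyP⟩ := hg
  have hy' : P * y * P⁻¹ = g := hyP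
  obtain ⟨Q', hQ', z, hz, hQz⟩ := Subgroup.mem_sup_of_normal_right.mp hy
  obtain ⟨Q, hQ⟩ := MonoidHom.mem_range.mp hQ'
  obtain ⟨l, hl⟩ := (mem_scalars_iff z).mp hz
  have hval : (Q' : Matrix (Fin n) (Fin n) F) = (Q : Matrix (Fin n) (Fin n) F₀).map (F₀.subtype : F₀ →+* F) := by
    rw [← hQ]; rfl
  have hQv : ∀ a b, (Q' : Matrix (Fin n) (Fin n) F) a b ∈ F₀ := by
    intro a b
    rw [hval]
    exact ((Q : Matrix (Fin n) (Fin n) F₀) a b).2
  refine ⟨l, l.ne_zero, ?_⟩
  rintro x ⟨t, ht, rfl⟩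
  refine ⟨_, ⟨(Q' : Matrix (Fin n) (Fin n) F) *ᵥ t, fun i => ?_, rfl⟩, ?_⟩
  · rw [Matrix.mulVec, dotProduct]
    exact F₀.sum_mem (fun j _ => F₀.mul_mem (hQv i j) (ht j))
  · rw [← hy', ← hQz, Matrix.mulVec_mulVec, ← Units.val_mul, inv_mul_cancel_right, Units.val_mul, Units.val_mul, hl,
      Matrix.mul_smul, Matrix.mul_one, Matrix.mul_smul, Matrix.smul_mulVec, Matrix.mulVec_mulVec]

lemma card_sub (h : Ctx (F := F) σ n q) (hc : Fintype.card F = Nat.card F₀ ^ 2) : Nat.card F₀ = q := by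
  rw [h.card] at hc
  exact (Nat.pow_left_injective (n := 2) (by norm_num) hc).symm

lemma fix_sub (h : Ctx (F := F) σ n q) (hc : Fintype.card F = Nat.card F₀ ^ 2) {x : F} (hx : x ∈ F₀) : σ x = x := by
  classical
  have h1 := card_sub h hc
  have h2 : (⟨x, hx⟩ : F₀) ^ Nat.card F₀ = ⟨x, hx⟩ := by
    rw [Nat.card_eq_fintype_card]
    exact FiniteField.pow_card _
  rw [h1] at h2
  rw [h.val]
  exact congrArg Subtype.val h2

/-- the bilinear form on the rational structure -/
noncomputable def bil (h : Ctx (F := F) σ n q) (hc : Fintype.card F = Nat.card F₀ ^ 2)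
    (hP : IsFormRationalStructure (hermForm n F q) F₀ 1 P) : LinearMap.BilinForm F₀ (Fin n → F₀) :=
  LinearMap.mk₂ F₀ (fun u v => ⟨hermForm n F q ((P : Matrix (Fin n) (Fin n) F) *ᵥ (fun i => (u i : F)))
      ((P : Matrix (Fin n) (Fin n) F) *ᵥ (fun i => (v i : F))), by
        have := hP (fun i => (u i : F)) (fun i => (v i : F)) (fun i => (u i).2) (fun i => (v i).2)
        rwa [one_mul] at this⟩)
    (by
      intro u u' v
      apply Subtype.ext
      change hermForm n F q _ _ = hermForm n F q _ _ + hermForm n F q _ _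
      rw [← h.form.sesq.add_left, ← Matrix.mulVec_add]
      rfl)
    (by
      intro c u v
      apply Subtype.ext
      change hermForm n F q _ _ = (c : F) * hermForm n F q _ _
      rw [← h.form.sesq.smul_left, ← Matrix.mulVec_smul]
      rfl)
    (by
      intro u v v'
      apply Subtype.ext
      change hermForm n F q _ _ = hermForm n F q _ _ + hermForm n F q _ _
      rw [← h.form.sesq.add_right, ← Matrix.mulVec_add]
      rfl)
    (by
      intro c u v
      apply Subtype.ext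
      change hermForm n F q _ _ = (c : F) * hermForm n F q _ _
      rw [← fix_sub h hc c.2, ← h.form.sesq.smul_right, ← Matrix.mulVec_smul]
      rfl)

lemma bil_apply (h : Ctx (F := F) σ n q) (hc : Fintype.card F = Nat.card F₀ ^ 2)
    (hP : IsFormRationalStructure (hermForm n F q) F₀ 1 P) (u v : Fin n → F₀) : ((bil h hc hP u v : F₀) : F) =
      hermForm n F q ((P : Matrix (Fin n) (Fin n) F) *ᵥ (fun i => (u i : F)))
      ((P : Matrix (Fin n) (Fin n) F) *ᵥ (fun i => (v i : F))) := rfl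

lemma bil_symm (h : Ctx (F := F) σ n q) (hc : Fintype.card F = Nat.card F₀ ^ 2)
    (hP : IsFormRationalStructure (hermForm n F q) F₀ 1 P) : LinearMap.IsSymm (bil h hc hP) := by
  refine ⟨fun u v => Subtype.ext ?_⟩
  rw [RingHom.id_apply]
  rw [bil_apply h hc hP v u, h.form.herm, one_mul, ← bil_apply h hc hP u v]
  exact (fix_sub h hc (bil h hc hP u v).2).symm

lemma bil_nd (h : Ctx (F := F) σ n q) (hc : Fintype.card F = Nat.card F₀ ^ 2)
    (hP : IsFormRationalStructure (hermForm n F q) F₀ 1 P) (u : Fin n → F₀) (hu : ∀ v, bil h hc hP u v = 0) : u = 0 := by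
  classical
  by_contra hu0
  have h1 : (P : Matrix (Fin n) (Fin n) F) *ᵥ (fun i => (u i : F)) ≠ 0 := by
    intro h0
    apply hu0
    have h2 := congrArg (fun w => ((P⁻¹ : GL (Fin n) F) : Matrix (Fin n) (Fin n) F) *ᵥ w) h0
    simp only [Matrix.mulVec_mulVec, ← Units.val_mul, inv_mul_cancel, Units.val_one, Matrix.one_mulVec,
      Matrix.mulVec_zero] at h2
    ext i
    exact congrFun h2 i
  obtain ⟨x, hx⟩ := h.form.nd _ h1
  apply hx
  have h3 : x = (P : Matrix (Fin n) (Fin n) F) *ᵥ (((P⁻¹ : GL (Fin n) F) : Matrix (Fin n) (Fin n) F) *ᵥ x) := by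
    rw [Matrix.mulVec_mulVec, ← Units.val_mul, mul_inv_cancel, Units.val_one, Matrix.one_mulVec]
  rw [h3]
  set w := ((P⁻¹ : GL (Fin n) F) : Matrix (Fin n) (Fin n) F) *ᵥ x
  rw [vec_eq_sum w, Matrix.mulVec_sum, h.form.sesq.sum_right]
  apply Finset.sum_eq_zero
  intro j _
  rw [Matrix.mulVec_smul, h.form.sesq.smul_right]
  have h4 := congrArg (fun y : F₀ => (y : F)) (hu (Pi.single j 1))
  rw [bil_apply] at h4
  have h5 : (fun i => ((Pi.single j (1 : F₀) : Fin n → F₀) i : F)) = (Pi.single j (1 : F) : Fin n → F) := by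
    ext i
    by_cases hij : i = j
    · subst hij; simp
    · rw [Pi.single_eq_of_ne hij, Pi.single_eq_of_ne hij]; rfl
  rw [h5] at h4
  rw [h4]
  simp

/-- **a rational structure has an orthogonal basis** -/
theorem exists_orth (h : Ctx (F := F) σ n q) (hc : Fintype.card F = Nat.card F₀ ^ 2) (h2 : (2 : F) ≠ 0)
    (hP : IsFormRationalStructure (hermForm n F q) F₀ 1 P) : ∃ w : Fin n → (Fin n → F), (∀ i, Rat F₀ P (w i)) ∧
      (∀ i, hermForm n F q (w i) (w i) ≠ 0) ∧ ∀ i j, i ≠ j → hermForm n F q (w i) (w j) = 0 := by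
  classical
  have h20 : (2 : F₀) ≠ 0 := by
    intro h0
    apply h2
    have h3 : F₀.subtype 2 = F₀.subtype 0 := congrArg _ h0
    rwa [map_ofNat, map_zero] at h3
  let _ : Invertible (2 : F₀) := invertibleOfNonzero h20
  obtain ⟨v, hv⟩ := LinearMap.BilinForm.exists_orthogonal_basis (bil_symm h hc hP)
  have hfr : Module.finrank F₀ (Fin n → F₀) = n := by simp
  let v' := v.reindex (finCongr hfr)
  have hv' : ∀ i j, i ≠ j → bil h hc hP (v' i) (v' j) = 0 := by
    intro i j hij
    simp only [v', Module.Basis.reindex_apply]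
    exact hv (fun hh => hij ((finCongr hfr).symm.injective hh))
  refine ⟨fun i => (P : Matrix (Fin n) (Fin n) F) *ᵥ (fun k => (v' i k : F)), fun i => ⟨_, fun k => (v' i k).2, rfl⟩, ?_, ?_⟩
  · intro i h0
    have h3 : bil h hc hP (v' i) (v' i) = 0 := Subtype.ext h0
    have h4 : v' i = 0 := by
      apply bil_nd h hc hP
      intro x
      have h5 : bil h hc hP (v' i) = 0 := by
        apply v'.ext
        intro j
        by_cases hij : i = j
        · subst hij; exact h3
        · exact hv' i j hij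
      rw [h5]; rfl
    exact v'.ne_zero i h4
  · intro i j hij
    have := congrArg (fun y : F₀ => (y : F)) (hv' i j hij)
    exact this

/-! ### the field with nine elements -/

lemma mem_three (h3 : Nat.card F₀ = 3) {x : F} (hx : x ∈ F₀) : x = 0 ∨ x = 1 ∨ x = -1 := by
  classical
  have h2 : (⟨x, hx⟩ : F₀) ^ 3 = ⟨x, hx⟩ := by
    rw [← h3, Nat.card_eq_fintype_card]
    exact FiniteField.pow_card _
  have h4 : x ^ 3 = x := congrArg Subtype.val h2
  have h5 : x * ((x - 1) * (x + 1)) = 0 := by linear_combination h4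
  rcases mul_eq_zero.mp h5 with h | h
  · left; exact h
  · rcases mul_eq_zero.mp h with h | h
    · right; left; exact sub_eq_zero.mp h
    · right; right; exact eq_neg_of_add_eq_zero_left h

lemma three_zero (h3 : Nat.card F₀ = 3) : (3 : F) = 0 := by
  classical
  have h4 : ((Fintype.card F₀ : ℕ) : F₀) = 0 := FiniteField.cast_card_eq_zero F₀
  rw [← Nat.card_eq_fintype_card, h3] at h4
  have h5 : F₀.subtype ((3 : ℕ) : F₀) = F₀.subtype 0 := congrArg _ h4
  rw [map_natCast, map_zero] at h5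
  exact_mod_cast h5

lemma two_ne (h3 : (3 : F) = 0) : (2 : F) ≠ 0 := by
  intro h2
  have : (1 : F) = 0 := by linear_combination h3 - h2
  exact one_ne_zero this

lemma sub_left {ι : Type} [Fintype ι] [DecidableEq ι] {f : (ι → F) → (ι → F) → F} (hS : IsSesq σ f) (a b x : ι → F) :
    f (a - b) x = f a x - f b x := by
  rw [sub_eq_add_neg, ← neg_one_smul F b, hS.add_left, hS.smul_left]; ring

lemma sub_right {ι : Type} [Fintype ι] [DecidableEq ι] {f : (ι → F) → (ι → F) → F} (hS : IsSesq σ f) (a b x : ι → F) :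
    f x (a - b) = f x a - f x b := by
  rw [sub_eq_add_neg, ← neg_one_smul F b, hS.add_right, hS.smul_right, map_neg, map_one]; ring

variable {P : GL (Fin 3) F}

/-- a rational frame with constant norm -/
def IsFr (q : ℕ) (F₀ : Subfield F) (P : GL (Fin 3) F) (w : Fin 3 → (Fin 3 → F)) (ε : F) : Prop :=
  (ε = 1 ∨ ε = -1) ∧ (∀ i, Rat F₀ P (w i)) ∧ ∀ i j, hermForm 3 F q (w i) (w j) = if i = j then ε else 0

lemma pair (h : Ctx (F := F) σ 3 q) (h3 : (3 : F) = 0) {a b c : Fin 3 → F} {d : F} (hd : d = 1 ∨ d = -1)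
    (ra : Rat F₀ P a) (rb : Rat F₀ P b) (rc : Rat F₀ P c) (haa : hermForm 3 F q a a = d) (hbb : hermForm 3 F q b b = d)
    (hcc : hermForm 3 F q c c = -d) (hab : hermForm 3 F q a b = 0) (hac : hermForm 3 F q a c = 0)
    (hbc : hermForm 3 F q b c = 0) : ∃ w ε, IsFr q F₀ P w ε := by
  have hS := h.form.sesq
  have hba : hermForm 3 F q b a = 0 := by rw [h.form.herm, hab, map_zero, mul_zero]
  have hca : hermForm 3 F q c a = 0 := by rw [h.form.herm, hac, map_zero, mul_zero]
  have hcb : hermForm 3 F q c b = 0 := by rw [h.form.herm, hbc, map_zero, mul_zero]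
  refine ⟨![a + b, a - b, c], -d, ?_, ?_, ?_⟩
  · rcases hd with h | h
    · right; rw [h]
    · left; rw [h, neg_neg]
  · intro i
    fin_cases i
    · exact ra.add rb
    · exact ra.sub rb
    · exact rc
  · intro i j
    fin_cases i <;> fin_cases j <;>
      simp [hS.add_left, hS.add_right, sub_left hS, sub_right hS, haa, hbb, hcc, hab, hac, hbc, hba, hca, hcb]
    · linear_combination d * h3
    · linear_combination d * h3

theorem exists_frame (h : Ctx (F := F) σ 3 q) (hc : Fintype.card F = Nat.card F₀ ^ 2) (hF : Nat.card F₀ = 3)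
    (hP : IsFormRationalStructure (hermForm 3 F q) F₀ 1 P) : ∃ w ε, IsFr q F₀ P w ε := by
  have h3 := three_zero hF
  obtain ⟨v, hv1, hv2, hv3⟩ := exists_orth h hc (two_ne h3) hP
  have hin : ∀ i, hermForm 3 F q (v i) (v i) = 1 ∨ hermForm 3 F q (v i) (v i) = -1 := by
    intro i
    obtain ⟨z, hz, hz'⟩ := hv1 i
    have h4 := hP z z hz hz
    rw [one_mul, hz'] at h4
    exact (mem_three hF h4).resolve_left (hv2 i)
  have hP' : ∀ ε : F, (ε = 1 ∨ ε = -1) → (∀ i, hermForm 3 F q (v i) (v i) = ε) → ∃ w ε, IsFr q F₀ P w ε := by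
    intro ε hε hh
    refine ⟨v, ε, hε, hv1, fun i j => ?_⟩
    by_cases hij : i = j
    · subst hij; rw [if_pos rfl]; exact hh i
    · rw [if_neg hij]; exact hv3 i j hij
  have e1 : (-(1 : F) = 1 ∨ -(1 : F) = -1) := Or.inr rfl
  rcases hin 0 with h0 | h0 <;> rcases hin 1 with h1 | h1 <;> rcases hin 2 with h2 | h2
  · exact hP' 1 (Or.inl rfl) (fun i => by fin_cases i <;> assumption)
  · exact pair h h3 (Or.inl rfl) (hv1 0) (hv1 1) (hv1 2) h0 h1 h2 (hv3 _ _ (by decide)) (hv3 _ _ (by decide))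
      (hv3 _ _ (by decide))
  · exact pair h h3 (Or.inl rfl) (hv1 0) (hv1 2) (hv1 1) h0 h2 h1 (hv3 _ _ (by decide)) (hv3 _ _ (by decide))
      (hv3 _ _ (by decide))
  · exact pair h h3 e1 (hv1 1) (hv1 2) (hv1 0) h1 h2 (by rw [neg_neg]; exact h0) (hv3 _ _ (by decide))
      (hv3 _ _ (by decide)) (hv3 _ _ (by decide))
  · exact pair h h3 (Or.inl rfl) (hv1 1) (hv1 2) (hv1 0) h1 h2 h0 (hv3 _ _ (by decide)) (hv3 _ _ (by decide))
      (hv3 _ _ (by decide))
  · exact pair h h3 e1 (hv1 0) (hv1 2) (hv1 1) h0 h2 (by rw [neg_neg]; exact h1) (hv3 _ _ (by decide))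
      (hv3 _ _ (by decide)) (hv3 _ _ (by decide))
  · exact pair h h3 e1 (hv1 0) (hv1 1) (hv1 2) h0 h1 (by rw [neg_neg]; exact h2) (hv3 _ _ (by decide))
      (hv3 _ _ (by decide)) (hv3 _ _ (by decide))
  · exact hP' (-1) (Or.inr rfl) (fun i => by fin_cases i <;> assumption)

lemma row (h3 : (3 : F) = 0) {x : Fin 3 → F} (hx : ∀ k, x k = 0 ∨ x k = 1 ∨ x k = -1) (hs : ∑ k, x k * x k = 1) :
    ∃ k, x k ≠ 0 ∧ ∀ l, l ≠ k → x l = 0 := by
  have sq : ∀ k, x k ≠ 0 → x k * x k = 1 := by
    intro k hk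
    rcases (hx k).resolve_left hk with h | h <;> rw [h] <;> ring
  rw [Fin.sum_univ_three] at hs
  have h2 := two_ne h3
  by_cases h0 : x 0 = 0 <;> by_cases h1 : x 1 = 0 <;> by_cases h4 : x 2 = 0
  · exfalso; rw [h0, h1, h4] at hs; simp at hs
  · exact ⟨2, h4, fun l hl => by fin_cases l <;> first | assumption | exact absurd rfl hl⟩
  · exact ⟨1, h1, fun l hl => by fin_cases l <;> first | assumption | exact absurd rfl hl⟩
  · exfalso; rw [h0, sq 1 h1, sq 2 h4] at hs
    exact one_ne_zero (α := F) (by linear_combination hs)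
  · exact ⟨0, h0, fun l hl => by fin_cases l <;> first | assumption | exact absurd rfl hl⟩
  · exfalso; rw [h1, sq 0 h0, sq 2 h4] at hs
    exact one_ne_zero (α := F) (by linear_combination hs)
  · exfalso; rw [h4, sq 0 h0, sq 1 h1] at hs
    exact one_ne_zero (α := F) (by linear_combination hs)
  · exfalso; rw [sq 0 h0, sq 1 h1, sq 2 h4] at hs
    exact one_ne_zero (α := F) (by linear_combination h3 - hs)

/-- **subfield subgroups over the field with nine elements preserve a frame** -/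
theorem subfield_lines (h : Ctx (F := F) σ 3 q) (hq : q = 3) (hc : Fintype.card F = Nat.card F₀ ^ 2)
    (hP : IsFormRationalStructure (hermForm 3 F q) F₀ 1 P) :
    ∃ D : Fin 3 → Submodule F (Fin 3 → F), IsNondegenerateMDecomposition (hermForm 3 F q) 1 D ∧
      subfieldSubgroup F₀ P ⊓ (GU 3 F q ⊓ specialLinear (Fin 3) F) ≤ decompositionStabilizer D := by
  classical
  have hF : Nat.card F₀ = 3 := (card_sub h hc).trans hq
  have h3 := three_zero hF
  have hS := h.form.sesq
  obtain ⟨w, ε, hε, hw, hww⟩ := exists_frame h hc hF hP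
  have hεε : ε * ε = 1 := by rcases hε with h | h <;> rw [h] <;> ring
  have hε0 : ε ≠ 0 := by intro h0; rw [h0, zero_mul] at hεε; exact zero_ne_one hεε
  refine ⟨fun i => Submodule.span F {w i}, lines_mk h.form (by norm_num) (by simp) ?_ ?_, ?_⟩
  · intro i; rw [hww, if_pos rfl]; exact hε0
  · intro i j hij; rw [hww, if_neg hij]
  rintro g ⟨hg, hgU, -⟩
  have hgU' : ∀ u v, hermForm 3 F q ((g : Matrix (Fin 3) (Fin 3) F) *ᵥ u) ((g : Matrix (Fin 3) (Fin 3) F) *ᵥ v) =
      hermForm 3 F q u v := hgU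
  obtain ⟨c, hc0, hact⟩ := sub_act hg
  choose y hy hgy using fun i => hact (w i) (hw i)
  have hcoef : ∀ (x : Fin 3 → F) k, hermForm 3 F q (∑ j, x j • w j) (w k) = x k * ε := by
    intro x k
    rw [hS.sum_left, Finset.sum_eq_single k]
    · rw [hS.smul_left, hww, if_pos rfl]
    · intro j _ hj
      rw [hS.smul_left, hww, if_neg hj, mul_zero]
    · intro h; exact absurd (Finset.mem_univ _) h
  have hli : LinearIndependent F w := by
    rw [Fintype.linearIndependent_iff]
    intro x hx i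
    have h1 := hcoef x i
    rw [hx, hS.zero_left] at h1
    exact (mul_eq_zero.mp h1.symm).resolve_right hε0
  let bs := basisOfLinearIndependentOfCardEqFinrank hli (by simp)
  have hbs : ⇑bs = w := coe_basisOfLinearIndependentOfCardEqFinrank _ _
  have hexp : ∀ x, x = ∑ k, (ε * hermForm 3 F q x (w k)) • w k := by
    intro x
    have h1 := bs.sum_repr x
    rw [hbs] at h1
    have h2 : ∀ k, hermForm 3 F q x (w k) = bs.repr x k * ε := by
      intro k
      rw [← hcoef (fun j => bs.repr x j) k, h1]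
    calc x = ∑ j, bs.repr x j • w j := h1.symm
      _ = _ := by
        refine Finset.sum_congr rfl fun k _ => ?_
        rw [h2]
        congr 1
        linear_combination -(bs.repr x k) * hεε
  set a : Fin 3 → Fin 3 → F := fun i k => ε * hermForm 3 F q (y i) (w k) with ha
  have haF : ∀ i k, a i k ∈ F₀ := by
    intro i k
    obtain ⟨z, hz, hz'⟩ := hy i
    obtain ⟨t, ht, ht'⟩ := hw k
    have h4 := hP z t hz ht
    rw [one_mul, hz', ht'] at h4
    refine F₀.mul_mem ?_ h4
    rcases hε with h | h <;> rw [h]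
    · exact F₀.one_mem
    · exact F₀.neg_mem F₀.one_mem
  have hσa : ∀ i k, σ (a i k) = a i k := fun i k => fix_sub h hc (haF i k)
  have hyy : ∀ i j, hermForm 3 F q (y i) (y j) = ε * ∑ k, a i k * a j k := by
    intro i j
    conv_lhs => rw [hexp (y j)]
    rw [hS.sum_right, Finset.mul_sum]
    refine Finset.sum_congr rfl fun k _ => ?_
    rw [hS.smul_right]
    change σ (a j k) * _ = _
    rw [hσa]
    simp only [ha]
    linear_combination -(ε * hermForm 3 F q (y j) (w k) * hermForm 3 F q (y i) (w k)) * hεε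
  have hN : ∀ i j, (c * σ c) * ∑ k, a i k * a j k = if i = j then 1 else 0 := by
    intro i j
    have h1 := hgU' (w i) (w j)
    rw [hgy, hgy, hS.smul_left, hS.smul_right, hyy, hww] at h1
    by_cases hij : i = j
    · rw [if_pos hij] at h1 ⊢
      have : ε * ((c * σ c) * ∑ k, a i k * a j k) = ε * 1 := by rw [mul_one]; linear_combination h1
      exact mul_left_cancel₀ hε0 this
    · rw [if_neg hij] at h1 ⊢
      have : ε * ((c * σ c) * ∑ k, a i k * a j k) = ε * 0 := by rw [mul_zero]; linear_combination h1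
      exact mul_left_cancel₀ hε0 this
  -- the multiplier is one
  have hN1 : c * σ c = 1 := by
    have h1 : (c * σ c) • (Matrix.of a * (Matrix.of a)ᵀ) = (1 : Matrix (Fin 3) (Fin 3) F) := by
      ext i j
      rw [Matrix.smul_apply, Matrix.mul_apply, Matrix.one_apply, ← hN i j]
      rfl
    have h2 := congrArg Matrix.det h1
    rw [Matrix.det_smul, Matrix.det_mul, Matrix.det_transpose, Matrix.det_one, Fintype.card_fin] at h2
    have h4 : (Matrix.of a).det ∈ F₀ := by
      rw [Matrix.det_fin_three]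
      have := haF
      refine F₀.sub_mem (F₀.add_mem (F₀.add_mem (F₀.sub_mem (F₀.sub_mem ?_ ?_) ?_) ?_) ?_) ?_ <;>
        exact F₀.mul_mem (F₀.mul_mem (haF _ _) (haF _ _)) (haF _ _)
    have h5 : (c * σ c) ^ 3 = c * σ c := by
      rw [← hq, ← h.val, map_mul, h.form.invol, mul_comm]
    rcases mem_three hF h4 with h6 | h6 | h6
    · rw [h6, mul_zero, mul_zero] at h2; exact absurd h2 zero_ne_one
    · rw [h6, mul_one, mul_one, h5] at h2; exact h2
    · rw [h6, h5] at h2; linear_combination h2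
  rw [hN1] at hN
  simp only [one_mul] at hN
  have hrow : ∀ i, ∃ k, a i k ≠ 0 ∧ ∀ l, l ≠ k → a i l = 0 := fun i =>
    row h3 (fun k => mem_three hF (haF i k)) (by rw [hN i i, if_pos rfl])
  choose p hp hp' using hrow
  have hpi : Function.Injective p := by
    intro i j hij
    by_contra hne
    have h1 := hN i j
    rw [if_neg hne, Finset.sum_eq_single (p i)] at h1
    · rcases mul_eq_zero.mp h1 with h | h
      · exact hp i h
      · rw [hij] at h; exact hp j h
    · intro l _ hl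
      rw [hp' i l hl, zero_mul]
    · intro h; exact absurd (Finset.mem_univ _) h
  refine lines_stab (Equiv.ofBijective p (Finite.injective_iff_bijective.mp hpi)) (fun i => ?_)
  refine ⟨c * a i (p i), mul_ne_zero hc0 (hp i), ?_⟩
  rw [hgy, mul_smul, Equiv.ofBijective_apply]
  congr 1
  conv_lhs => rw [hexp (y i)]
  rw [Finset.sum_eq_single (p i)]
  · intro l _ hl
    change a i l • w l = 0
    rw [hp' i l hl, zero_smul]
  · intro h; exact absurd (Finset.mem_univ _) h

end H51.U3Sub
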